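import Cfsg.Agent.Lib.Helper59.TP.Defs

set_option autoImplicit false

/-! Rung BAS of the S5637 ladder: basic facts on `ins`, `II`, `ev`. -/

namespace Cfsg.Agent.Lib.Helper59.TP

open TensorProduct Module Cfsg.Agent.Lib.Helper95 Cfsg.Agent.Lib.Helper97

variable {F U W : Type*} [Field F] [AddCommGroup U] [Module F U] [AddCommGroup W] [Module F W]

theorem ev_add (ψ ψ' : Dual F W) : ev U (ψ + ψ') = ev U ψ + ev U ψ' := by
  apply TensorProduct.ext'
  intro u w
  simp [add_smul]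

theorem ev_sub (ψ ψ' : Dual F W) : ev U (ψ - ψ') = ev U ψ - ev U ψ' := by
  apply TensorProduct.ext'
  intro u w
  simp [sub_smul]

theorem ev_smul (c : F) (ψ : Dual F W) : ev U (c • ψ) = c • ev U ψ := by
  apply TensorProduct.ext'
  intro u w
  simp [mul_smul]

theorem ev_zero : ev U (0 : Dual F W) = 0 := by
  apply TensorProduct.ext'
  intro u w
  simp

theorem ev_comp_congr (ψ : Dual F W) (t : U ≃ₗ[F] U) (s : W ≃ₗ[F] W) :
    ev U ψ ∘ₗ (TensorProduct.congr t s).toLinearMap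
      = t.toLinearMap ∘ₗ ev U (ψ ∘ₗ s.toLinearMap) := by
  apply TensorProduct.ext'
  intro u w
  simp

theorem ev_ins {w : W} {χ : Dual F W} (h : χ w = 1) (u : U) : ev U χ (ins F U w u) = u := by
  rw [ins_apply, ev_tmul, h, one_smul]

theorem ins_injective {w : W} (hw : w ≠ 0) : Function.Injective (ins F U w) := by
  obtain ⟨χ, hχ⟩ := Module.Projective.exists_dual_eq_one F hw
  intro u u' h
  have := congrArg (ev U χ) h
  rwa [ev_ins hχ, ev_ins hχ] at this

theorem ev_injective [Nontrivial U] : Function.Injective (ev U : Dual F W → _) := by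
  intro ψ ψ' h
  obtain ⟨u, hu⟩ := exists_ne (0 : U)
  ext w
  have h1 := congrArg (fun Λ : U ⊗[F] W →ₗ[F] U => Λ (u ⊗ₜ[F] w)) h
  simp only [ev_tmul] at h1
  exact smul_left_injective F hu h1

theorem finrank_II [FiniteDimensional F U] {w : W} (hw : w ≠ 0) :
    finrank F (II F U w) = finrank F U :=
  LinearMap.finrank_range_of_inj (ins_injective hw)

theorem II_smul {c : F} (hc : c ≠ 0) (w : W) : II F U (c • w) = II F U w := by
  ext v
  rw [mem_II, mem_II]
  constructor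
  · rintro ⟨u, rfl⟩
    exact ⟨c • u, by rw [TensorProduct.tmul_smul, TensorProduct.smul_tmul']⟩
  · rintro ⟨u, rfl⟩
    exact ⟨c⁻¹ • u, by
      rw [TensorProduct.tmul_smul, TensorProduct.smul_tmul', smul_smul, mul_inv_cancel₀ hc,
        one_smul]⟩

theorem map_congr_II (t : U ≃ₗ[F] U) (s : W ≃ₗ[F] W) (w : W) :
    (II F U w).map (TensorProduct.congr t s).toLinearMap = II F U (s w) := by
  ext v
  rw [Submodule.mem_map, mem_II]
  constructor
  · rintro ⟨x, hx, rfl⟩
    obtain ⟨u, rfl⟩ := (mem_II U).mp hx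
    exact ⟨t u, by simp⟩
  · rintro ⟨u, rfl⟩
    exact ⟨t.symm u ⊗ₜ[F] w, tmul_mem_II U w _, by simp⟩

theorem sum_ev_coord {κ : Type*} [Fintype κ] (b : Basis κ F W) (v : U ⊗[F] W) :
    ∑ k, ev U (b.coord k) v ⊗ₜ[F] b k = v := by
  induction v using TensorProduct.induction_on with
  | zero => simp
  | tmul u x =>
    simp only [ev_tmul, Basis.coord_apply]
    simp_rw [← TensorProduct.smul_tmul', ← TensorProduct.tmul_smul]
    rw [← TensorProduct.tmul_sum, b.sum_repr]
  | add x y hx hy =>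
    simp only [map_add, TensorProduct.add_tmul, Finset.sum_add_distrib, hx, hy]

theorem eq_zero_of_ev [FiniteDimensional F W] {v : U ⊗[F] W}
    (h : ∀ ψ : Dual F W, ev U ψ v = 0) : v = 0 := by
  rw [← sum_ev_coord (Module.finBasis F W) v]
  apply Finset.sum_eq_zero
  intro k _
  rw [h, TensorProduct.zero_tmul]

theorem eq_tmul_of_ev [FiniteDimensional F W] {w : W} {χ₀ : Dual F W} (hχ₀ : χ₀ w = 1)
    {v : U ⊗[F] W} (h : ∀ ψ : Dual F W, ψ w = 0 → ev U ψ v = 0) : v = ev U χ₀ v ⊗ₜ[F] w := by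
  rw [← sub_eq_zero]
  apply eq_zero_of_ev
  intro ψ
  have h1 : ψ = (ψ - ψ w • χ₀) + ψ w • χ₀ := by abel
  have h2 : (ψ - ψ w • χ₀) w = 0 := by simp [hχ₀]
  rw [map_sub, ev_tmul, h1, ev_add, ev_smul, LinearMap.add_apply, h _ h2, LinearMap.smul_apply]
  simp [hχ₀]

theorem mem_II_of_ev [FiniteDimensional F W] {w : W} (hw : w ≠ 0) {v : U ⊗[F] W}
    (h : ∀ ψ : Dual F W, ψ w = 0 → ev U ψ v = 0) : v ∈ II F U w := by
  obtain ⟨χ₀, hχ₀⟩ := Module.Projective.exists_dual_eq_one F hw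
  rw [eq_tmul_of_ev hχ₀ h]
  exact tmul_mem_II U w _

theorem exists_ev_eq_zero [FiniteDimensional F U] [FiniteDimensional F W]
    (hab : finrank F U < finrank F W) (v : U ⊗[F] W) :
    ∃ ψ : Dual F W, ψ ≠ 0 ∧ ev U ψ v = 0 := by
  let T : Dual F W →ₗ[F] U :=
    { toFun := fun ψ => ev U ψ v
      map_add' := fun ψ ψ' => by rw [ev_add, LinearMap.add_apply]
      map_smul' := fun c ψ => by rw [ev_smul, LinearMap.smul_apply, RingHom.id_apply] }
  have h1 : LinearMap.ker T ≠ ⊥ := by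
    apply LinearMap.ker_ne_bot_of_finrank_lt
    rw [Subspace.dual_finrank_eq]; exact hab
  obtain ⟨ψ, hψ, hψ0⟩ := (Submodule.ne_bot_iff _).mp h1
  exact ⟨ψ, hψ0, hψ⟩

theorem exists_ins_eq_zero [FiniteDimensional F U] [FiniteDimensional F W]
    (hab : finrank F U < finrank F W) (f : Dual F (U ⊗[F] W)) :
    ∃ w : W, w ≠ 0 ∧ f ∘ₗ ins F U w = 0 := by
  let T : W →ₗ[F] Dual F U :=
    { toFun := fun w => f ∘ₗ ins F U w
      map_add' := fun w w' => by
        ext u; simp [TensorProduct.tmul_add]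
      map_smul' := fun c w => by
        ext u; simp }
  have h1 : LinearMap.ker T ≠ ⊥ := by
    apply LinearMap.ker_ne_bot_of_finrank_lt
    rw [Subspace.dual_finrank_eq]; exact hab
  obtain ⟨w, hw, hw0⟩ := (Submodule.ne_bot_iff _).mp h1
  exact ⟨w, hw0, hw⟩

end Cfsg.Agent.Lib.Helper59.TP
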