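import Cfsg.Agent.Lib.Helper59.TP.Defs

set_option autoImplicit false

/-! Ladder TP, rung RK1 (helper98). -/

namespace Cfsg.Agent.Lib.Helper59.TP

open TensorProduct Module Cfsg.Agent.Lib.Helper95 Cfsg.Agent.Lib.Helper97

variable {F U W : Type*} [Field F] [AddCommGroup U] [Module F U] [AddCommGroup W] [Module F W]

/-- a functional with `f x = 1`, `f y = 0`, or `x` is a multiple of `y`. -/
theorem rk1_dual_or (x y : U) : (∃ f : Dual F U, f x = 1 ∧ f y = 0) ∨ ∃ c : F, x = c • y := by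
  by_cases h : x ∈ Submodule.span F {y}
  · right
    obtain ⟨c, hc⟩ := Submodule.mem_span_singleton.mp h
    exact ⟨c, hc.symm⟩
  · left
    obtain ⟨f, hfx, hf⟩ := Submodule.exists_le_ker_of_notMem h
    refine ⟨(f x)⁻¹ • f, ?_, ?_⟩
    · rw [LinearMap.smul_apply, smul_eq_mul, inv_mul_cancel₀ hfx]
    · have : f y = 0 := hf (Submodule.mem_span_singleton_self y)
      rw [LinearMap.smul_apply, this, smul_zero]

/-- a vector with `f x = 1`, `g x = 0`, or `f` is a multiple of `g`. -/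
theorem rk1_vec_or (f g : Dual F U) : (∃ x : U, f x = 1 ∧ g x = 0) ∨ ∃ c : F, f = c • g := by
  by_cases h : ∃ x : U, g x = 0 ∧ f x ≠ 0
  · left
    obtain ⟨x, hg, hf⟩ := h
    refine ⟨(f x)⁻¹ • x, ?_, ?_⟩
    · rw [map_smul, smul_eq_mul, inv_mul_cancel₀ hf]
    · rw [map_smul, hg, smul_zero]
  · right
    push Not at h
    by_cases hg : g = 0
    · refine ⟨0, ?_⟩
      rw [zero_smul]
      ext x
      exact h x (by rw [hg]; rfl)
    · obtain ⟨x0, hx0⟩ : ∃ x0, g x0 ≠ 0 := by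
        by_contra hc
        push Not at hc
        exact hg (LinearMap.ext hc)
      refine ⟨f x0 * (g x0)⁻¹, ?_⟩
      ext x
      have h1 : g (x - (g x * (g x0)⁻¹) • x0) = 0 := by
        rw [map_sub, map_smul, smul_eq_mul, mul_assoc, inv_mul_cancel₀ hx0, mul_one, sub_self]
      have h2 := h _ h1
      rw [map_sub, map_smul, smul_eq_mul, sub_eq_zero] at h2
      rw [h2, LinearMap.smul_apply, smul_eq_mul]
      ring

theorem all_rk1 [FiniteDimensional F U] (ha : 2 ≤ finrank F U)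
    (S : Set (U →ₗ[F] U)) (hadd : ∀ A ∈ S, ∀ B ∈ S, A + B ∈ S) (hneg : ∀ A ∈ S, -A ∈ S)
    (hsmul : ∀ (c : F), ∀ A ∈ S, c • A ∈ S)
    (hconj : ∀ A ∈ S, ∀ (φ : Dual F U) (u : U) (h : φ u = 0),
      (LinearEquiv.transvection h).toLinearMap ∘ₗ A ∘ₗ
        (LinearEquiv.transvection h).symm.toLinearMap ∈ S)
    (hmul : ∀ A ∈ S, ∀ B ∈ S, A ∘ₗ B ∈ S)
    (u₀ : U) (φ₀ : Dual F U) (hu : u₀ ≠ 0) (hφ : φ₀ ≠ 0) (h0 : φ₀ u₀ = 0)
    (h : φ₀.smulRight u₀ ∈ S) : ∀ (u : U) (φ : Dual F U), φ.smulRight u ∈ S := by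
  have hsub : ∀ A ∈ S, ∀ B ∈ S, A - B ∈ S := fun A hA B hB => by
    rw [sub_eq_add_neg]; exact hadd A hA _ (hneg B hB)
  -- closure properties of `𝒫`
  have Psubu : ∀ (u u' : U) (φ : Dual F U), φ.smulRight u ∈ S → φ.smulRight u' ∈ S →
      φ.smulRight (u - u') ∈ S := by
    intro u u' φ h1 h2
    have e : φ.smulRight (u - u') = φ.smulRight u - φ.smulRight u' := by
      ext x; simp [smul_sub]
    rw [e]; exact hsub _ h1 _ h2
  have Psmulu : ∀ (c : F) (u : U) (φ : Dual F U), φ.smulRight u ∈ S →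
      φ.smulRight (c • u) ∈ S := by
    intro c u φ h1
    have e : φ.smulRight (c • u) = c • φ.smulRight u := by
      ext x
      simp only [LinearMap.smulRight_apply, LinearMap.smul_apply]
      rw [smul_comm]
    rw [e]; exact hsmul c _ h1
  have Paddf : ∀ (u : U) (φ φ' : Dual F U), φ.smulRight u ∈ S → φ'.smulRight u ∈ S →
      (φ + φ').smulRight u ∈ S := by
    intro u φ φ' h1 h2
    have e : (φ + φ').smulRight u = φ.smulRight u + φ'.smulRight u := by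
      ext x; simp [add_smul]
    rw [e]; exact hadd _ h1 _ h2
  have Psubf : ∀ (u : U) (φ φ' : Dual F U), φ.smulRight u ∈ S → φ'.smulRight u ∈ S →
      (φ - φ').smulRight u ∈ S := by
    intro u φ φ' h1 h2
    have e : (φ - φ').smulRight u = φ.smulRight u - φ'.smulRight u := by
      ext x; simp [sub_smul]
    rw [e]; exact hsub _ h1 _ h2
  have Psmulf : ∀ (c : F) (u : U) (φ : Dual F U), φ.smulRight u ∈ S →
      (c • φ).smulRight u ∈ S := by
    intro c u φ h1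
    have e : (c • φ).smulRight u = c • φ.smulRight u := by
      ext x; simp [mul_smul]
    rw [e]; exact hsmul c _ h1
  have Pconj : ∀ (u : U) (φ : Dual F U), φ.smulRight u ∈ S → ∀ (ψ : Dual F U) (v : U), ψ v = 0 →
      (φ - φ v • ψ).smulRight (u + ψ u • v) ∈ S := by
    intro u φ h1 ψ v hv
    have e : (φ - φ v • ψ).smulRight (u + ψ u • v) =
        (LinearEquiv.transvection hv).toLinearMap ∘ₗ φ.smulRight u ∘ₗ
        (LinearEquiv.transvection hv).symm.toLinearMap := by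
      ext x
      rw [LinearEquiv.transvection.symm_eq hv]
      simp only [LinearMap.smulRight_apply, LinearMap.comp_apply, LinearEquiv.coe_coe,
        LinearEquiv.transvection.apply, LinearMap.sub_apply, LinearMap.smul_apply, map_add,
        map_smul, map_neg, smul_eq_mul]
      module
    rw [e]; exact hconj _ h1 ψ v hv
  have Pmul : ∀ (u₁ u₂ : U) (φ₁ φ₂ : Dual F U), φ₁.smulRight u₁ ∈ S → φ₂.smulRight u₂ ∈ S →
      φ₂.smulRight (φ₁ u₂ • u₁) ∈ S := by
    intro u₁ u₂ φ₁ φ₂ h1 h2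
    have e : φ₂.smulRight (φ₁ u₂ • u₁) = φ₁.smulRight u₁ ∘ₗ φ₂.smulRight u₂ := by
      ext x; simp [mul_smul]
    rw [e]; exact hmul _ h1 _ h2
  -- C1
  have C1 : ∀ (u u' : U) (φ : Dual F U), φ.smulRight u ∈ S → u ≠ 0 → φ u' = 0 →
      φ.smulRight u' ∈ S := by
    intro u u' φ h1 hu0 hu'
    rcases rk1_dual_or (F := F) u u' with ⟨ψ, hψu, hψu'⟩ | ⟨c, hc⟩
    · have h2 := Pconj u φ h1 ψ u' hψu'
      rw [hu', zero_smul, sub_zero, hψu, one_smul] at h2
      have h3 := Psubu _ _ φ h2 h1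
      rwa [add_sub_cancel_left] at h3
    · have hc0 : c ≠ 0 := by
        rintro rfl
        exact hu0 (by rw [hc, zero_smul])
      have : u' = c⁻¹ • u := by rw [hc, smul_smul, inv_mul_cancel₀ hc0, one_smul]
      rw [this]; exact Psmulu _ _ _ h1
  -- C2
  have C2 : ∀ (u : U) (φ φ' : Dual F U), φ.smulRight u ∈ S → φ ≠ 0 → φ' u = 0 →
      φ'.smulRight u ∈ S := by
    intro u φ φ' h1 hφ0 hu'
    rcases rk1_vec_or φ φ' with ⟨v, hφv, hφ'v⟩ | ⟨c, hc⟩
    · have h2 := Pconj u φ h1 φ' v hφ'v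
      rw [hu', zero_smul, add_zero, hφv, one_smul] at h2
      have h3 := Psubf u _ _ h1 h2
      rwa [sub_sub_cancel] at h3
    · have hc0 : c ≠ 0 := by
        rintro rfl
        exact hφ0 (by rw [hc, zero_smul])
      have : φ' = c⁻¹ • φ := by rw [hc, smul_smul, inv_mul_cancel₀ hc0, one_smul]
      rw [this]; exact Psmulf _ _ _ h1
  -- C3
  obtain ⟨u', hu'⟩ : ∃ u', φ₀ u' = 1 := by
    obtain ⟨x, hx⟩ : ∃ x, φ₀ x ≠ 0 := by
      by_contra hc
      push Not at hc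
      exact hφ (LinearMap.ext hc)
    exact ⟨(φ₀ x)⁻¹ • x, by rw [map_smul, smul_eq_mul, inv_mul_cancel₀ hx]⟩
  obtain ⟨φ', hφ'u₀, hφ'u'⟩ : ∃ φ' : Dual F U, φ' u₀ = 1 ∧ φ' u' = 0 := by
    rcases rk1_dual_or (F := F) u₀ u' with h1 | ⟨c, hc⟩
    · exact h1
    · exfalso
      have : φ₀ u₀ = c := by rw [hc, map_smul, hu', smul_eq_mul, mul_one]
      rw [h0] at this
      exact hu (by rw [hc, ← this, zero_smul])
  have C3' : φ'.smulRight u₀ ∈ S := by
    have h2 := Pconj u₀ φ₀ h φ' u' hφ'u'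
    rw [hu', one_smul, hφ'u₀, one_smul] at h2
    have h3 := Pmul _ _ _ _ h h2
    rw [map_add, h0, hu', zero_add, one_smul] at h3
    have h4 := Psubf u₀ _ _ h h3
    rwa [sub_sub_cancel] at h4
  have C3 : ∀ φ : Dual F U, φ.smulRight u₀ ∈ S := by
    intro φ
    have h1 : (φ - φ u₀ • φ').smulRight u₀ ∈ S := by
      apply C2 u₀ φ₀ _ h hφ
      rw [LinearMap.sub_apply, LinearMap.smul_apply, hφ'u₀, smul_eq_mul, mul_one, sub_self]
    have h2 := Paddf u₀ _ _ h1 (Psmulf (φ u₀) _ _ C3')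
    rwa [sub_add_cancel] at h2
  have C4 : ∀ (u : U) (φ : Dual F U), φ u = 0 → φ.smulRight u ∈ S :=
    fun u φ hφu => C1 u₀ u φ (C3 φ) hu hφu
  intro u φ
  by_cases hφu : φ u = 0
  · exact C4 u φ hφu
  -- C5
  obtain ⟨u₂, hu₂, hu₂0⟩ : ∃ u₂ : U, φ u₂ = 0 ∧ u₂ ≠ 0 := by
    have h1 := LinearMap.finrank_range_add_finrank_ker φ
    have h2 : finrank F (LinearMap.range φ) ≤ 1 := by
      have := Submodule.finrank_le (LinearMap.range φ)
      rwa [finrank_self] at this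
    have h3 : 0 < finrank F (LinearMap.ker φ) := by omega
    obtain ⟨⟨x, hx⟩, hx0⟩ := finrank_pos_iff_exists_ne_zero.mp h3
    exact ⟨x, hx, fun e => hx0 (Subtype.ext e)⟩
  obtain ⟨φ₁, hφ₁u₂, hφ₁u⟩ : ∃ φ₁ : Dual F U, φ₁ u₂ = 1 ∧ φ₁ u = 0 := by
    rcases rk1_dual_or (F := F) u₂ u with h1 | ⟨c, hc⟩
    · exact h1
    · exfalso
      have h1 : φ u₂ = c * φ u := by rw [hc, map_smul, smul_eq_mul]
      rw [hu₂] at h1
      rcases mul_eq_zero.mp h1.symm with h2 | h2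
      · exact hu₂0 (by rw [hc, h2, zero_smul])
      · exact hφu h2
  have h5 := Pmul u u₂ φ₁ φ (C4 u φ₁ hφ₁u) (C4 u₂ φ hu₂)
  rwa [hφ₁u₂, one_smul] at h5

end Cfsg.Agent.Lib.Helper59.TP
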