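import Cfsg.Agent.Lib.Helper59.TP.ZXC
import Cfsg.Agent.Lib.Helper59.TP.BAS
import Cfsg.Agent.Lib.Helper59.TP.RK1

set_option autoImplicit false

/-! Ladder TP, rung ALG (helper98): `SS M` is a conjugation-stable subalgebra. -/

namespace Cfsg.Agent.Lib.Helper59.TP

open TensorProduct Module Cfsg.Agent.Lib.Helper95 Cfsg.Agent.Lib.Helper97

variable {F U W : Type*} [Field F] [AddCommGroup U] [Module F U] [AddCommGroup W] [Module F W]
variable {M : Subgroup ((U ⊗[F] W) ≃ₗ[F] (U ⊗[F] W))}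

/-- In dimension at least three a hyperplane is not contained in a line. -/
theorem alg_exists_ker_not_span [FiniteDimensional F W] (hb : 3 ≤ finrank F W) (χ : Dual F W)
    (w : W) : ∃ w' : W, χ w' = 0 ∧ ∀ c : F, w' ≠ c • w := by
  have h1 := LinearMap.finrank_range_add_finrank_ker χ
  have h2 : finrank F (LinearMap.range χ) ≤ 1 := by
    have := Submodule.finrank_le (LinearMap.range χ)
    rwa [finrank_self] at this
  have h3 : 2 ≤ finrank F (LinearMap.ker χ) := by omega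
  have h4 : ¬ LinearMap.ker χ ≤ Submodule.span F {w} := by
    intro hle
    have h5 := Submodule.finrank_mono hle
    have h6 : finrank F (Submodule.span F {w}) ≤ 1 := by
      have := finrank_span_le_card (R := F) ({w} : Set W)
      simpa using this
    omega
  obtain ⟨w', hw', hn⟩ := SetLike.not_le_iff_exists.mp h4
  refine ⟨w', hw', fun c hc => hn ?_⟩
  rw [hc]
  exact Submodule.smul_mem _ _ (Submodule.mem_span_singleton_self w)

theorem SS_add {A B : U →ₗ[F] U} (hA : A ∈ SS M) (hB : B ∈ SS M) : A + B ∈ SS M := by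
  intro w χ h
  rw [LinearMap.add_comp]
  exact (hA w χ h).add (hB w χ h)

theorem SS_neg {A : U →ₗ[F] U} (hA : A ∈ SS M) : -A ∈ SS M := by
  intro w χ h
  rw [LinearMap.neg_comp]
  exact (hA w χ h).neg

theorem SS_smul (c : F) {A : U →ₗ[F] U} (hA : A ∈ SS M) : c • A ∈ SS M := by
  intro w χ h
  have e : (c • A) ∘ₗ ev U χ = A ∘ₗ ev U (c • χ) := by
    rw [ev_smul, LinearMap.comp_smul, LinearMap.smul_comp]
  rw [e]
  exact hA w (c • χ) (by rw [LinearMap.smul_apply, h, smul_zero])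

theorem SS_mul [FiniteDimensional F W] (hb : 3 ≤ finrank F W) {A B : U →ₗ[F] U}
    (hA : A ∈ SS M) (hB : B ∈ SS M) : A ∘ₗ B ∈ SS M := by
  intro w₁ χ₂ h
  by_cases hw : w₁ = 0
  · subst hw
    exact ZX.zero_left _
  obtain ⟨w₂, hw₂, hn⟩ := alg_exists_ker_not_span hb χ₂ w₁
  obtain ⟨χ₁, h12, h11⟩ : ∃ χ₁ : Dual F W, χ₁ w₂ = 1 ∧ χ₁ w₁ = 0 := by
    rcases rk1_dual_or (F := F) w₂ w₁ with h1 | ⟨c, hc⟩
    · exact h1
    · exact absurd hc (hn c)
  have h3 := ZX.comm (hA w₁ χ₁ h11) (hB w₂ χ₂ hw₂) h11 hw₂ h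
  rw [h12, one_smul] at h3
  rw [LinearMap.comp_assoc]
  exact h3

theorem SS_conj (hU : HU M) {A : U →ₗ[F] U} (hA : A ∈ SS M) (φ : Dual F U) (u : U) (h : φ u = 0) :
    (LinearEquiv.transvection h).toLinearMap ∘ₗ A ∘ₗ (LinearEquiv.transvection h).symm.toLinearMap
      ∈ SS M := by
  intro w χ hχ
  have h1 := (hA w χ hχ).conj (LinearEquiv.transvection h) (LinearEquiv.refl F W) (hU φ u h)
  rw [LinearEquiv.refl_apply] at h1
  have e : (LinearEquiv.transvection h).toLinearMap ∘ₗ (A ∘ₗ ev U χ) ∘ₗ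
      (TensorProduct.congr (LinearEquiv.transvection h) (LinearEquiv.refl F W)).symm.toLinearMap
      = ((LinearEquiv.transvection h).toLinearMap ∘ₗ A ∘ₗ
        (LinearEquiv.transvection h).symm.toLinearMap) ∘ₗ ev U χ := by
    apply TensorProduct.ext'
    intro x y
    simp only [LinearMap.comp_apply, LinearEquiv.coe_coe, TensorProduct.congr_symm_tmul, ev_tmul,
      LinearEquiv.refl_symm, LinearEquiv.refl_apply, map_smul]
  rwa [e] at h1

end Cfsg.Agent.Lib.Helper59.TP
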