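import Cfsg.Agent.Lib.Helper59.TP.Defs

set_option autoImplicit false
set_option linter.style.haveILetI false

/-! Ladder "TP", rung COUNT (helper41): the partial spread count. -/

namespace Cfsg.Agent.Lib.Helper59.TP

open TensorProduct Module Cfsg.Agent.Lib.Helper95 Cfsg.Agent.Lib.Helper97

variable {F U W : Type*} [Field F] [AddCommGroup U] [Module F U] [AddCommGroup W] [Module F W]

theorem count_card_filter {V : Type*} [AddCommGroup V] [Module F V] [Fintype F]
    [FiniteDimensional F V] [Fintype V] (P : Submodule F V) [DecidablePred (fun v => v ∈ P)] :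
    (Finset.univ.filter (fun v => v ∈ P)).card = Fintype.card F ^ finrank F P := by
  have h1 := Module.natCard_eq_pow_finrank (K := F) (V := P)
  rw [Nat.card_eq_fintype_card (α := F)] at h1
  rw [← h1, Nat.card_eq_fintype_card]
  exact (Fintype.card_subtype _).symm

theorem count_arith (n q a d l : ℕ) (hq : 2 ≤ q) (hd : d < a) (hl : l + d ≤ 2 * a)
    (h : (n + 1) * (q ^ a - q ^ d) ≤ q ^ l - q ^ d) : n ≤ q ^ (a - d) := by
  obtain ⟨k, rfl⟩ : ∃ k, a = d + (k + 1) := ⟨a - d - 1, by omega⟩
  have h1 : q ^ l ≤ q ^ (d + (k + 1) + (k + 1)) := Nat.pow_le_pow_right (by omega) (by omega)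
  have hX : 2 ≤ q ^ (k + 1) := by
    calc 2 ≤ q := hq
      _ = q ^ 1 := (pow_one q).symm
      _ ≤ q ^ (k + 1) := Nat.pow_le_pow_right (by omega) (by omega)
  obtain ⟨x, hx⟩ : ∃ x, q ^ (k + 1) = x + 1 := ⟨q ^ (k + 1) - 1, by omega⟩
  have hx1 : 1 ≤ x := by omega
  have hY : 0 < q ^ d := Nat.pow_pos (by omega)
  have e1 : q ^ (d + (k + 1)) - q ^ d = x * q ^ d := by
    rw [pow_add, hx]
    have : q ^ d * (x + 1) = x * q ^ d + q ^ d := by ring
    rw [this, Nat.add_sub_cancel]
  have e2 : q ^ (d + (k + 1) + (k + 1)) - q ^ d = (x + 2) * (x * q ^ d) := by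
    rw [pow_add, pow_add, hx]
    have : q ^ d * (x + 1) * (x + 1) = (x + 2) * (x * q ^ d) + q ^ d := by ring
    rw [this, Nat.add_sub_cancel]
  have h2 : (n + 1) * (x * q ^ d) ≤ (x + 2) * (x * q ^ d) := by
    rw [← e2]
    rw [e1] at h
    exact h.trans (Nat.sub_le_sub_right h1 _)
  have h3 := Nat.le_of_mul_le_mul_right h2 (Nat.mul_pos hx1 hY)
  have : d + (k + 1) - d = k + 1 := by omega
  rw [this, hx]
  omega

theorem card_le_of_partial_spread {V : Type*} [AddCommGroup V] [Module F V] [Fintype F]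
    [FiniteDimensional F V] (D I L : Submodule F V) {Ψ : Type*} [Fintype Ψ]
    (J : Ψ → Submodule F V) (a d : ℕ) (hd : d < a) (hD : finrank F D = d) (hI : finrank F I = a)
    (hJ : ∀ ψ, finrank F (J ψ) = a) (hL : finrank F L + d ≤ 2 * a) (hIL : I ≤ L)
    (hJL : ∀ ψ, J ψ ≤ L) (hIJ : ∀ ψ, I ⊓ J ψ = D) (hJJ : ∀ ψ ψ', ψ ≠ ψ' → J ψ ⊓ J ψ' = D) :
    Fintype.card Ψ ≤ Fintype.card F ^ (a - d) := by
  classical
  rcases isEmpty_or_nonempty Ψ with hΨ | ⟨⟨ψ₀⟩⟩
  · rw [Fintype.card_eq_zero]
    exact Nat.zero_le _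
  haveI : Finite V := Module.finite_of_finite F
  letI : Fintype V := Fintype.ofFinite V
  let K : Option Ψ → Submodule F V := fun o => o.elim I J
  have hK : ∀ i, finrank F (K i) = a := by
    rintro (_ | ψ)
    · exact hI
    · exact hJ ψ
  have hKL : ∀ i, K i ≤ L := by
    rintro (_ | ψ)
    · exact hIL
    · exact hJL ψ
  have hKK : ∀ i j, i ≠ j → K i ⊓ K j = D := by
    rintro (_ | ψ) (_ | ψ') hij
    · exact absurd rfl hij
    · exact hIJ ψ'
    · rw [inf_comm]
      exact hIJ ψ
    · exact hJJ ψ ψ' (fun h => hij (by rw [h]))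
  have hDK : ∀ i, D ≤ K i := by
    rintro (_ | ψ)
    · rw [← hIJ ψ₀]
      exact inf_le_left
    · rw [← hIJ ψ]
      exact inf_le_right
  have hsd : ∀ P : Submodule F V, D ≤ P →
      ((Finset.univ.filter (fun v => v ∈ P)) \ (Finset.univ.filter (fun v => v ∈ D))).card
        = Fintype.card F ^ finrank F P - Fintype.card F ^ d := by
    intro P hP
    rw [Finset.card_sdiff_of_subset, count_card_filter, count_card_filter, hD]
    intro v hv
    simp only [Finset.mem_filter, Finset.mem_univ, true_and] at hv ⊢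
    exact hP hv
  let t : Option Ψ → Finset V := fun i =>
    (Finset.univ.filter (fun v => v ∈ K i)) \ (Finset.univ.filter (fun v => v ∈ D))
  have hdisj : ((Finset.univ : Finset (Option Ψ)) : Set (Option Ψ)).PairwiseDisjoint t := by
    intro i _ j _ hij
    rw [Function.onFun, Finset.disjoint_left]
    intro v hvi hvj
    simp only [t, Finset.mem_sdiff, Finset.mem_filter, Finset.mem_univ, true_and] at hvi hvj
    apply hvi.2
    rw [← hKK i j hij]
    exact ⟨hvi.1, hvj.1⟩
  have hcard := Finset.card_biUnion hdisj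
  have hsub : Finset.univ.biUnion t ⊆
      (Finset.univ.filter (fun v => v ∈ L)) \ (Finset.univ.filter (fun v => v ∈ D)) := by
    intro v hv
    rw [Finset.mem_biUnion] at hv
    obtain ⟨i, _, hvi⟩ := hv
    simp only [t, Finset.mem_sdiff, Finset.mem_filter, Finset.mem_univ, true_and] at hvi ⊢
    exact ⟨hKL i hvi.1, hvi.2⟩
  have hle := Finset.card_le_card hsub
  rw [hcard, hsd L ((hDK none).trans (hKL none))] at hle
  have hsum : ∑ i : Option Ψ, (t i).card
      = (Fintype.card Ψ + 1) * (Fintype.card F ^ a - Fintype.card F ^ d) := by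
    have : ∀ i ∈ (Finset.univ : Finset (Option Ψ)), (t i).card
        = Fintype.card F ^ a - Fintype.card F ^ d := by
      intro i _
      rw [← hK i]
      exact hsd (K i) (hDK i)
    rw [Finset.sum_const_nat this, Finset.card_univ, Fintype.card_option]
  rw [hsum] at hle
  exact count_arith _ _ a d _ Fintype.one_lt_card hd hL hle

theorem card_annihilator [Fintype F] [FiniteDimensional F W] {w : W} (hw : w ≠ 0)
    [Fintype {ψ : Dual F W // ψ w = 0}] :
    Fintype.card {ψ : Dual F W // ψ w = 0} = Fintype.card F ^ (finrank F W - 1) := by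
  have hne : Dual.eval F W w ≠ 0 := by
    intro h
    apply hw
    rw [← Module.forall_dual_apply_eq_zero_iff F w]
    intro φ
    exact LinearMap.congr_fun h φ
  have h1 := Module.Dual.finrank_ker_add_one_of_ne_zero hne
  rw [Subspace.dual_finrank_eq] at h1
  have h2 := Module.natCard_eq_pow_finrank (K := F) (V := LinearMap.ker (Dual.eval F W w))
  rw [Nat.card_eq_fintype_card (α := F)] at h2
  have h3 : finrank F (LinearMap.ker (Dual.eval F W w)) = finrank F W - 1 := by omega
  rw [← h3, ← h2, ← Nat.card_eq_fintype_card]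
  exact Nat.card_congr (Equiv.subtypeEquivRight (fun ψ => by
    rw [LinearMap.mem_ker]
    rfl))

end Cfsg.Agent.Lib.Helper59.TP
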