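import Cfsg.Agent.Lib.Helper59.TP.Defs

set_option autoImplicit false

namespace Cfsg.Agent.Lib.Helper59.TP

open TensorProduct Module Cfsg.Agent.Lib.Helper95 Cfsg.Agent.Lib.Helper97

variable {F U W : Type*} [Field F] [AddCommGroup U] [Module F U] [AddCommGroup W] [Module F W]
variable {M : Subgroup ((U ⊗[F] W) ≃ₗ[F] (U ⊗[F] W))}

/-- an automorphism `e` with `(e - 1)² = 0` over a finite field has determinant one -/
lemma det_mem_slGrp_of_sq_zero [Fintype F] {V : Type*} [AddCommGroup V] [Module F V]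
    (e : V ≃ₗ[F] V) (h : ∀ v, e (e v - v) = e v - v) : e ∈ slGrp F V := by
  obtain ⟨p, hp⟩ := CharP.exists F
  have hpp : p.Prime := CharP.char_is_prime F p
  have : Fact p.Prime := ⟨hpp⟩
  have hpow : ∀ (k : ℕ) (v : V), (e ^ k) v = v + k • (e v - v) := by
    intro k
    induction k with
    | zero => intro v; simp
    | succ k ih =>
      intro v
      rw [pow_succ, LinearEquiv.mul_apply, ih]
      have h1 : e (e v) - e v = e v - v := by rw [← map_sub, h]
      rw [h1, succ_nsmul]
      abel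
  have hep : e ^ p = 1 := by
    apply LinearEquiv.ext
    intro v
    rw [hpow, ← Nat.cast_smul_eq_nsmul F, CharP.cast_eq_zero F p, zero_smul, add_zero]
    rfl
  have hdet : (LinearEquiv.det e) ^ p = 1 := by rw [← map_pow, hep, map_one]
  have h2 : ((LinearEquiv.det e : Fˣ) : F) ^ p = 1 := by
    have := congrArg Units.val hdet
    simpa using this
  have h3 : (((LinearEquiv.det e : Fˣ) : F) - 1) ^ p = 0 := by
    rw [sub_pow_char, h2, one_pow, sub_self]
  have h4 : ((LinearEquiv.det e : Fˣ) : F) = 1 := sub_eq_zero.1 (pow_eq_zero_iff hpp.ne_zero |>.1 h3)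
  exact MonoidHom.mem_ker.2 (Units.ext h4)

theorem HU_of_le [Fintype F] [FiniteDimensional F U] [FiniteDimensional F W]
    (hM : NT F U W ⊓ slGrp F (U ⊗[F] W) ≤ M) : HU M := by
  intro φ u h
  apply hM
  refine ⟨congr_mem_NT _ _, ?_⟩
  apply det_mem_slGrp_of_sq_zero
  set e := TensorProduct.congr (LinearEquiv.transvection h) (LinearEquiv.refl F W) with he
  have hD : (e.toLinearMap - LinearMap.id) ∘ₗ (e.toLinearMap - LinearMap.id) = 0 := by
    apply TensorProduct.ext'
    intro x y
    simp [he, LinearMap.transvection.apply, h, TensorProduct.add_tmul]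
  intro v
  have := LinearMap.congr_fun hD v
  simp only [LinearMap.comp_apply, LinearMap.sub_apply, LinearMap.id_apply, LinearEquiv.coe_coe,
    LinearMap.zero_apply] at this
  exact sub_eq_zero.1 this

theorem HW_of_le [Fintype F] [FiniteDimensional F U] [FiniteDimensional F W]
    (hM : NT F U W ⊓ slGrp F (U ⊗[F] W) ≤ M) : HW M := by
  intro χ w h
  apply hM
  refine ⟨congr_mem_NT _ _, ?_⟩
  apply det_mem_slGrp_of_sq_zero
  set e := TensorProduct.congr (LinearEquiv.refl F U) (LinearEquiv.transvection h) with he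
  have hD : (e.toLinearMap - LinearMap.id) ∘ₗ (e.toLinearMap - LinearMap.id) = 0 := by
    apply TensorProduct.ext'
    intro x y
    simp [he, LinearMap.transvection.apply, h, TensorProduct.tmul_add]
  intro v
  have := LinearMap.congr_fun hD v
  simp only [LinearMap.comp_apply, LinearMap.sub_apply, LinearMap.id_apply, LinearEquiv.coe_coe,
    LinearMap.zero_apply] at this
  exact sub_eq_zero.1 this

theorem mem_slGrp_of_unipotent [Fintype F] [FiniteDimensional F U] [FiniteDimensional F W]
    (e : (U ⊗[F] W) ≃ₗ[F] (U ⊗[F] W)) (w : W) (Λ : U ⊗[F] W →ₗ[F] U)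
    (hΛ : ∀ u, Λ (u ⊗ₜ[F] w) = 0) (he : ∀ v, e v = v + Λ v ⊗ₜ[F] w) :
    e ∈ slGrp F (U ⊗[F] W) := by
  apply det_mem_slGrp_of_sq_zero
  intro v
  have h1 : e v - v = Λ v ⊗ₜ[F] w := by rw [he]; abel
  rw [h1, he, hΛ, TensorProduct.zero_tmul, add_zero]

end Cfsg.Agent.Lib.Helper59.TP
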