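import Cfsg.Prelude.Def_GeometricClasses
import Cfsg.Agent.Lib.Helper95.SLGen
import Cfsg.Agent.Lib.Helper97.FullVec

set_option autoImplicit false

/-! Definitions and basic API for the S5637 ladder "TP": the stabiliser `GL(U) ⊗ GL(W)` of a tensor
decomposition `V = U ⊗ W` (`2 ≤ dim U < dim W`) is maximal in `SL(V)`. -/

namespace Cfsg.Agent.Lib.Helper59.TP

open TensorProduct Module Cfsg.Agent.Lib.Helper95 Cfsg.Agent.Lib.Helper97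

variable (F U : Type*) {W : Type*} [Field F] [AddCommGroup U] [Module F U] [AddCommGroup W]
  [Module F W]

/-- `u ↦ u ⊗ w`. -/
def ins (w : W) : U →ₗ[F] U ⊗[F] W := (TensorProduct.mk F U W).flip w

@[simp] lemma ins_apply (w : W) (u : U) : ins F U w u = u ⊗ₜ[F] w := rfl

/-- The subspace `U ⊗ w`. -/
def II (w : W) : Submodule F (U ⊗[F] W) := LinearMap.range (ins F U w)

variable {F}

lemma mem_II {w : W} {v : U ⊗[F] W} : v ∈ II F U w ↔ ∃ u : U, u ⊗ₜ[F] w = v := Iff.rfl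

lemma tmul_mem_II (w : W) (u : U) : u ⊗ₜ[F] w ∈ II F U w := ⟨u, rfl⟩

/-- `u ⊗ w ↦ ψ w • u`. -/
def ev (ψ : Dual F W) : U ⊗[F] W →ₗ[F] U :=
  (TensorProduct.rid F U).toLinearMap ∘ₗ LinearMap.lTensor U ψ

@[simp] lemma ev_tmul (ψ : Dual F W) (u : U) (w : W) : ev U ψ (u ⊗ₜ[F] w) = ψ w • u := by
  simp [ev]

variable (F) (W)

/-- The group `GL(U) ⊗ GL(W)`. -/
def NT : Subgroup ((U ⊗[F] W) ≃ₗ[F] (U ⊗[F] W)) where
  carrier := {e | ∃ (t : U ≃ₗ[F] U) (s : W ≃ₗ[F] W), e = TensorProduct.congr t s}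
  mul_mem' := by
    rintro _ _ ⟨t, s, rfl⟩ ⟨t', s', rfl⟩
    refine ⟨t * t', s * s', ?_⟩
    apply LinearEquiv.toLinearMap_injective
    apply TensorProduct.ext'
    intro u w
    simp [LinearEquiv.mul_apply]
  one_mem' := ⟨1, 1, by
    apply LinearEquiv.toLinearMap_injective
    apply TensorProduct.ext'
    intro u w
    simp⟩
  inv_mem' := by
    rintro _ ⟨t, s, rfl⟩
    refine ⟨t⁻¹, s⁻¹, ?_⟩
    rw [inv_eq_iff_mul_eq_one]
    apply LinearEquiv.toLinearMap_injective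
    apply TensorProduct.ext'
    intro u w
    simp [LinearEquiv.mul_apply]

variable {F U W}

lemma congr_mem_NT (t : U ≃ₗ[F] U) (s : W ≃ₗ[F] W) : TensorProduct.congr t s ∈ NT F U W :=
  ⟨t, s, rfl⟩

/-- `M` contains the element `v ↦ v + Λ v ⊗ w` (`Λ` vanishing on `U ⊗ w`). -/
def ZX (M : Subgroup ((U ⊗[F] W) ≃ₗ[F] (U ⊗[F] W))) (w : W) (Λ : U ⊗[F] W →ₗ[F] U) : Prop :=
  (∀ u, Λ (u ⊗ₜ[F] w) = 0) ∧ ∃ e ∈ M, ∀ v, e v = v + Λ v ⊗ₜ[F] w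

/-- Every element `v ↦ v + Λ v ⊗ w` of `M` is one of the obvious ones `1 ⊗ (1 + w ψ)`. -/
def Std (M : Subgroup ((U ⊗[F] W) ≃ₗ[F] (U ⊗[F] W))) : Prop :=
  ∀ (w : W) (Λ : U ⊗[F] W →ₗ[F] U), w ≠ 0 → ZX M w Λ → ∃ ψ : Dual F W, Λ = ev U ψ

/-- `M` contains `τ ⊗ 1` for all transvections `τ` of `U`. -/
def HU (M : Subgroup ((U ⊗[F] W) ≃ₗ[F] (U ⊗[F] W))) : Prop :=
  ∀ (φ : Dual F U) (u : U) (h : φ u = 0),
    TensorProduct.congr (LinearEquiv.transvection h) (LinearEquiv.refl F W) ∈ M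

/-- `M` contains `1 ⊗ σ` for all transvections `σ` of `W`. -/
def HW (M : Subgroup ((U ⊗[F] W) ≃ₗ[F] (U ⊗[F] W))) : Prop :=
  ∀ (χ : Dual F W) (w : W) (h : χ w = 0),
    TensorProduct.congr (LinearEquiv.refl F U) (LinearEquiv.transvection h) ∈ M

/-- The set of `A ∈ End U` with `1 + A ⊗ w χ ∈ M` for all flags `(w, χ)`. -/
def SS (M : Subgroup ((U ⊗[F] W) ≃ₗ[F] (U ⊗[F] W))) : Set (U →ₗ[F] U) :=
  {A | ∀ (w : W) (χ : Dual F W), χ w = 0 → ZX M w (A ∘ₗ ev U χ)}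

/-- The rank one endomorphism `x ↦ φ x • u`. -/
abbrev rk1 (u : U) (φ : Dual F U) : U →ₗ[F] U := φ.smulRight u

end Cfsg.Agent.Lib.Helper59.TP
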