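import Cfsg.Agent.Lib.Helper59.TP.FLAG

set_option autoImplicit false

/-! Ladder TP, rung E1 (helper98): a non-standard element gives a non-scalar `A`. -/

namespace Cfsg.Agent.Lib.Helper59.TP

open TensorProduct Module Cfsg.Agent.Lib.Helper95 Cfsg.Agent.Lib.Helper97

variable {F U W : Type*} [Field F] [AddCommGroup U] [Module F U] [AddCommGroup W] [Module F W]
variable {M : Subgroup ((U ⊗[F] W) ≃ₗ[F] (U ⊗[F] W))}

theorem e1_exists_nonscalar {Λ : U ⊗[F] W →ₗ[F] U} (hΛ : ∀ ψ : Dual F W, Λ ≠ ev U ψ) :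
    ∃ w₀ : W, ∀ c : F, Λ ∘ₗ ins F U w₀ ≠ c • LinearMap.id := by
  by_contra hc
  push Not at hc
  by_cases hU : ∀ u : U, u = 0
  · apply hΛ 0
    apply LinearMap.ext
    intro v
    rw [hU (Λ v)]
    exact (hU _).symm
  · push Not at hU
    obtain ⟨u₀, hu₀⟩ := hU
    obtain ⟨φ₀, hφ₀⟩ : ∃ φ₀ : Dual F U, φ₀ u₀ = 1 := by
      rcases rk1_dual_or (F := F) u₀ (0 : U) with ⟨f, hf, -⟩ | ⟨c, hc'⟩
      · exact ⟨f, hf⟩
      · exact absurd (by rw [hc', smul_zero]) hu₀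
    apply hΛ (φ₀ ∘ₗ Λ ∘ₗ (TensorProduct.mk F U W u₀))
    apply TensorProduct.ext'
    intro u w₀
    obtain ⟨c, hcw⟩ := hc w₀
    have h1 : ∀ x : U, Λ (x ⊗ₜ[F] w₀) = c • x := by
      intro x
      have := LinearMap.congr_fun hcw x
      simpa using this
    rw [ev_tmul, h1]
    simp only [LinearMap.comp_apply, TensorProduct.mk_apply, h1, map_smul, hφ₀, smul_eq_mul,
      mul_one]

theorem exists_nonscalar_of_not_std [FiniteDimensional F W] (hb : 3 ≤ finrank F W) (hW : HW M)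
    {w : W} (hw : w ≠ 0) {Λ : U ⊗[F] W →ₗ[F] U} (h : ZX M w Λ) (hΛ : ∀ ψ : Dual F W, Λ ≠ ev U ψ) :
    ∃ (A : U →ₗ[F] U) (χ : Dual F W), (∀ c : F, A ≠ c • LinearMap.id) ∧ χ ≠ 0 ∧ χ w = 0 ∧
      ZX M w (A ∘ₗ ev U χ) := by
  obtain ⟨w₀, hw₀⟩ := e1_exists_nonscalar hΛ
  obtain ⟨χ, hχ0, hχw, hχw₀⟩ := flag_exists_ker_ker (F := F) (W := Dual F W)
    (by rw [Subspace.dual_finrank_eq]; exact hb) (Dual.eval F W w) (Dual.eval F W w₀)
  have hχw' : χ w = 0 := hχw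
  have hχw₀' : χ w₀ = 0 := hχw₀
  refine ⟨Λ ∘ₗ ins F U w₀, χ, hw₀, hχ0, hχw', ?_⟩
  have h1 := h.conj (LinearEquiv.refl F U) (LinearEquiv.transvection hχw₀') (hW χ w₀ hχw₀')
  rw [LinearEquiv.transvection.apply, hχw', zero_smul, add_zero] at h1
  have e : (LinearEquiv.refl F U).toLinearMap ∘ₗ Λ ∘ₗ
      (TensorProduct.congr (LinearEquiv.refl F U)
        (LinearEquiv.transvection hχw₀')).symm.toLinearMap
      = Λ - (Λ ∘ₗ ins F U w₀) ∘ₗ ev U χ := by
    apply TensorProduct.ext'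
    intro u x
    simp only [LinearMap.comp_apply, LinearEquiv.coe_coe, TensorProduct.congr_symm_tmul, ev_tmul,
      LinearEquiv.refl_apply, LinearEquiv.refl_symm, LinearMap.sub_apply, ins_apply]
    rw [LinearEquiv.transvection.symm_eq hχw₀' (by rw [map_neg, hχw₀', neg_zero]),
      LinearEquiv.transvection.apply, TensorProduct.tmul_add, map_add, smul_neg,
      TensorProduct.tmul_neg, map_neg, TensorProduct.tmul_smul, TensorProduct.smul_tmul',
      sub_eq_add_neg]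
  rw [e] at h1
  have h2 := h.sub h1
  rwa [sub_sub_cancel] at h2

end Cfsg.Agent.Lib.Helper59.TP
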