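import Cfsg.Agent.Lib.Helper59.TP.Defs

set_option autoImplicit false
set_option linter.unusedSimpArgs false

/-! Ladder "TP", rung ENDU (helper41): a subspace of `End U` normalised by the transvections and
containing a non-scalar map contains a nilpotent map of rank one. -/

namespace Cfsg.Agent.Lib.Helper59.TP

open TensorProduct Module Cfsg.Agent.Lib.Helper95 Cfsg.Agent.Lib.Helper97

variable {F U : Type*} [Field F] [AddCommGroup U] [Module F U]

theorem endu_conj (A : U →ₗ[F] U) (φ : Dual F U) (u : U) (h : φ u = 0) (x : U) :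
    ((LinearEquiv.transvection h).toLinearMap ∘ₗ A ∘ₗ
      (LinearEquiv.transvection h).symm.toLinearMap) x
      = A x - φ x • A u + (φ (A x) - φ x * φ (A u)) • u := by
  have hs : (LinearEquiv.transvection h).symm x = x - φ x • u := by
    change x + φ x • (-u) = _
    rw [smul_neg, sub_eq_add_neg]
  simp only [LinearMap.comp_apply, LinearEquiv.coe_coe, hs, LinearEquiv.transvection.apply,
    map_sub, map_smul]
  module

theorem endu_exists_vec (A : U →ₗ[F] U) (hns : ∀ c : F, A ≠ c • LinearMap.id) :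
    ∃ u : U, ∀ c : F, A u ≠ c • u := by
  by_contra hcon
  push Not at hcon
  obtain ⟨c, hc⟩ := LinearMap.exists_eq_smul_id_of_forall_notLinearIndependent
    (f := A) (by
      intro v hli
      obtain ⟨c, hc⟩ := hcon v
      rw [LinearIndependent.pair_iff] at hli
      have := (hli c (-1) (by rw [hc, neg_smul, one_smul, add_neg_cancel])).2
      exact one_ne_zero (neg_eq_zero.1 this))
  exact hns c hc

theorem endu_exists_dual (u v : U) (h : ∀ c : F, v ≠ c • u) :
    ∃ φ : Dual F U, φ u = 0 ∧ φ v = 1 := by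
  have hv : v ∉ Submodule.span F {u} := by
    intro hmem
    obtain ⟨c, hc⟩ := Submodule.mem_span_singleton.1 hmem
    exact h c hc.symm
  obtain ⟨f, hf, hfu⟩ := Submodule.exists_dual_map_eq_bot_of_notMem hv inferInstance
  have hu : f u = 0 := by
    have : f u ∈ (Submodule.span F {u}).map f :=
      Submodule.mem_map_of_mem (Submodule.mem_span_singleton_self u)
    rw [hfu] at this
    exact this
  refine ⟨(f v)⁻¹ • f, ?_, ?_⟩
  · rw [LinearMap.smul_apply, hu, smul_zero]
  · rw [LinearMap.smul_apply, smul_eq_mul, inv_mul_cancel₀ hf]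

theorem endu_exists_dual' [FiniteDimensional F U] (h3 : 3 ≤ finrank F U) (u v : U) :
    ∃ φ : Dual F U, φ ≠ 0 ∧ φ u = 0 ∧ φ v = 0 := by
  have hker : LinearMap.ker (LinearMap.prod (Dual.eval F U u) (Dual.eval F U v)) ≠ ⊥ := by
    apply LinearMap.ker_ne_bot_of_finrank_lt
    rw [Subspace.dual_finrank_eq, Module.finrank_prod, Module.finrank_self]
    omega
  obtain ⟨φ, hφ, hφ0⟩ := (Submodule.ne_bot_iff _).1 hker
  rw [LinearMap.mem_ker, LinearMap.prod_apply, Prod.mk_eq_zero] at hφ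
  exact ⟨φ, hφ0, hφ.1, hφ.2⟩

theorem exists_rk1_of_nonscalar [Fintype F] [FiniteDimensional F U]
    (ha : 2 ≤ finrank F U) (hex : ¬ (finrank F U = 2 ∧ Fintype.card F = 2))
    (S : Set (U →ₗ[F] U)) (hadd : ∀ A ∈ S, ∀ B ∈ S, A + B ∈ S) (hneg : ∀ A ∈ S, -A ∈ S)
    (hsmul : ∀ (c : F), ∀ A ∈ S, c • A ∈ S)
    (hconj : ∀ A ∈ S, ∀ (φ : Dual F U) (u : U) (h : φ u = 0),
      (LinearEquiv.transvection h).toLinearMap ∘ₗ A ∘ₗ
        (LinearEquiv.transvection h).symm.toLinearMap ∈ S)
    (A : U →ₗ[F] U) (hA : A ∈ S) (hns : ∀ c : F, A ≠ c • LinearMap.id) :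
    ∃ (u : U) (φ : Dual F U), u ≠ 0 ∧ φ ≠ 0 ∧ φ u = 0 ∧ φ.smulRight u ∈ S := by
  classical
  obtain ⟨u, hu⟩ := endu_exists_vec A hns
  have hu0 : u ≠ 0 := by
    rintro rfl
    exact hu 0 (by rw [map_zero, smul_zero])
  obtain ⟨φ, hφu, hφv⟩ := endu_exists_dual u (A u) hu
  have hφ0 : φ ≠ 0 := by
    rintro rfl
    simp at hφv
  have hcφ : ∀ c : F, (c • φ) u = 0 := fun c => by rw [LinearMap.smul_apply, hφu, smul_zero]
  have hB : ∀ c : F, (LinearEquiv.transvection (hcφ c)).toLinearMap ∘ₗ A ∘ₗ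
      (LinearEquiv.transvection (hcφ c)).symm.toLinearMap + -A ∈ S :=
    fun c => hadd _ (hconj A hA _ _ _) _ (hneg A hA)
  by_cases hq : ∃ c₀ : F, c₀ ≠ 0 ∧ c₀ ≠ 1
  · obtain ⟨c₀, h0, h1⟩ := hq
    refine ⟨u, φ, hu0, hφ0, hφu, ?_⟩
    have h2 := hadd _ (hsmul c₀ _ (hB 1)) _ (hneg _ (hB c₀))
    have h3 : c₀ • ((LinearEquiv.transvection (hcφ 1)).toLinearMap ∘ₗ A ∘ₗ
        (LinearEquiv.transvection (hcφ 1)).symm.toLinearMap + -A) +
        -((LinearEquiv.transvection (hcφ c₀)).toLinearMap ∘ₗ A ∘ₗ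
        (LinearEquiv.transvection (hcφ c₀)).symm.toLinearMap + -A)
        = (c₀ ^ 2 - c₀) • φ.smulRight u := by
      ext x
      simp only [LinearMap.add_apply, LinearMap.smul_apply, LinearMap.neg_apply, endu_conj,
        hφv, smul_eq_mul, LinearMap.smulRight_apply]
      module
    rw [h3] at h2
    have h4 : c₀ ^ 2 - c₀ ≠ 0 := by
      have : c₀ ^ 2 - c₀ = c₀ * (c₀ - 1) := by ring
      rw [this]
      exact mul_ne_zero h0 (sub_ne_zero.2 h1)
    have h5 := hsmul (c₀ ^ 2 - c₀)⁻¹ _ h2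
    rwa [smul_smul, inv_mul_cancel₀ h4, one_smul] at h5
  · push Not at hq
    have hcard : Fintype.card F = 2 := by
      apply le_antisymm
      · have hsub : (Finset.univ : Finset F) ⊆ {0, 1} := by
          intro c _
          by_cases hc : c = 0
          · simp [hc]
          · simp [hq c hc]
        exact (Finset.card_le_card hsub).trans Finset.card_le_two
      · exact Fintype.one_lt_card
    have h3 : 3 ≤ finrank F U := by
      rcases Nat.lt_or_ge 2 (finrank F U) with h | h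
      · exact h
      · exact absurd ⟨le_antisymm h ha, hcard⟩ hex
    obtain ⟨φ', hφ'0, hφ'u, hφ'v⟩ := endu_exists_dual' h3 u (A u)
    refine ⟨u, φ', hu0, hφ'0, hφ'u, ?_⟩
    have h2 := hneg _ (hadd _ (hconj _ (hB 1) φ' u hφ'u) _ (hneg _ (hB 1)))
    have h4 : -((LinearEquiv.transvection hφ'u).toLinearMap ∘ₗ
        ((LinearEquiv.transvection (hcφ 1)).toLinearMap ∘ₗ A ∘ₗ
        (LinearEquiv.transvection (hcφ 1)).symm.toLinearMap + -A) ∘ₗ
        (LinearEquiv.transvection hφ'u).symm.toLinearMap +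
        -((LinearEquiv.transvection (hcφ 1)).toLinearMap ∘ₗ A ∘ₗ
        (LinearEquiv.transvection (hcφ 1)).symm.toLinearMap + -A)) = φ'.smulRight u := by
      ext x
      simp only [LinearMap.add_apply, LinearMap.smul_apply, LinearMap.neg_apply, endu_conj,
        hφv, hφu, hφ'u, hφ'v, smul_eq_mul, LinearMap.smulRight_apply, map_add, map_sub, map_neg,
        map_smul, mul_zero, mul_one, zero_smul, sub_zero, zero_mul, add_zero, one_mul, one_smul,
        sub_self, neg_zero, zero_add]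
      module
    rwa [h4] at h2

end Cfsg.Agent.Lib.Helper59.TP
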