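import Cfsg.Agent.Lib.Helper59.TP.ALG

set_option autoImplicit false

/-! Ladder TP, rung FLAG (helper98): one flag gives all flags. -/

namespace Cfsg.Agent.Lib.Helper59.TP

open TensorProduct Module Cfsg.Agent.Lib.Helper95 Cfsg.Agent.Lib.Helper97

variable {F U W : Type*} [Field F] [AddCommGroup U] [Module F U] [AddCommGroup W] [Module F W]
variable {M : Subgroup ((U ⊗[F] W) ≃ₗ[F] (U ⊗[F] W))}

/-- conjugation by `1 ⊗ σ`. -/
theorem flag_conj (hW : HW M) {A : U →ₗ[F] U} {w : W} {χ : Dual F W}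
    (h : ZX M w (A ∘ₗ ev U χ)) (χ'' : Dual F W) (w'' : W) (h'' : χ'' w'' = 0) :
    ZX M (w + χ'' w • w'') (A ∘ₗ ev U (χ - χ w'' • χ'')) := by
  have h1 := h.conj (LinearEquiv.refl F U) (LinearEquiv.transvection h'') (hW χ'' w'' h'')
  rw [LinearEquiv.transvection.apply] at h1
  have e : (LinearEquiv.refl F U).toLinearMap ∘ₗ (A ∘ₗ ev U χ) ∘ₗ
      (TensorProduct.congr (LinearEquiv.refl F U)
        (LinearEquiv.transvection h'')).symm.toLinearMap = A ∘ₗ ev U (χ - χ w'' • χ'') := by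
    apply TensorProduct.ext'
    intro u x
    simp only [LinearMap.comp_apply, LinearEquiv.coe_coe, TensorProduct.congr_symm_tmul, ev_tmul,
      LinearEquiv.refl_apply, LinearEquiv.refl_symm]
    rw [LinearEquiv.transvection.symm_eq h'' (by rw [map_neg, h'', neg_zero]),
      LinearEquiv.transvection.apply]
    congr 2
    simp only [map_add, map_smul, map_neg, LinearMap.sub_apply, LinearMap.smul_apply, smul_eq_mul]
    ring
  rwa [e] at h1

theorem flag_add_right {A : U →ₗ[F] U} {w : W} {χ χ' : Dual F W}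
    (h : ZX M w (A ∘ₗ ev U χ)) (h' : ZX M w (A ∘ₗ ev U χ')) : ZX M w (A ∘ₗ ev U (χ + χ')) := by
  rw [ev_add, LinearMap.comp_add]
  exact h.add h'

theorem flag_sub_right {A : U →ₗ[F] U} {w : W} {χ χ' : Dual F W}
    (h : ZX M w (A ∘ₗ ev U χ)) (h' : ZX M w (A ∘ₗ ev U χ')) : ZX M w (A ∘ₗ ev U (χ - χ')) := by
  rw [ev_sub, LinearMap.comp_sub]
  exact h.sub h'

theorem flag_i_aux (hW : HW M) {A : U →ₗ[F] U} {w w' : W} {χ : Dual F W}
    (h : ZX M w (A ∘ₗ ev U χ)) (hw : w ≠ 0) (hw' : χ w' = 0) (hn : ∀ c : F, w' ≠ c • w) :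
    ZX M w' (A ∘ₗ ev U χ) := by
  rcases rk1_dual_or (F := F) w w' with ⟨χ'', h1, h2⟩ | ⟨c, hc⟩
  · have h3 := flag_conj hW h χ'' w' h2
    rw [h1, one_smul, hw', zero_smul, sub_zero] at h3
    have h4 := h3.sub_left h
    rwa [add_sub_cancel_left] at h4
  · exfalso
    have hc0 : c ≠ 0 := by
      rintro rfl
      exact hw (by rw [hc, zero_smul])
    exact hn c⁻¹ (by rw [hc, smul_smul, inv_mul_cancel₀ hc0, one_smul])

theorem flag_i [FiniteDimensional F W] (hb : 3 ≤ finrank F W) (hW : HW M) {A : U →ₗ[F] U}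
    {w w' : W} {χ : Dual F W}
    (h : ZX M w (A ∘ₗ ev U χ)) (hw : w ≠ 0) (hw' : χ w' = 0) :
    ZX M w' (A ∘ₗ ev U χ) := by
  by_cases hn : ∀ c : F, w' ≠ c • w
  · exact flag_i_aux hW h hw hw' hn
  · push Not at hn
    obtain ⟨c, hc⟩ := hn
    obtain ⟨w₃, hw₃, hn₃⟩ := alg_exists_ker_not_span hb χ w
    have h1 := flag_i_aux hW h hw hw₃ hn₃
    have h2 : ZX M (w' - w₃) (A ∘ₗ ev U χ) := by
      apply flag_i_aux hW h hw (by rw [map_sub, hw', hw₃, sub_zero])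
      intro c' hc'
      apply hn₃ (c - c')
      rw [sub_smul, ← hc, ← hc', sub_sub_cancel]
    have h3 := h2.add_left h1
    rwa [sub_add_cancel] at h3

theorem flag_ii_aux (hW : HW M) {A : U →ₗ[F] U} {w : W} {χ χ' : Dual F W}
    (h : ZX M w (A ∘ₗ ev U χ)) (hχ : χ ≠ 0) (hw' : χ' w = 0) (hn : ∀ c : F, χ' ≠ c • χ) :
    ZX M w (A ∘ₗ ev U χ') := by
  rcases rk1_vec_or χ χ' with ⟨w'', h1, h2⟩ | ⟨c, hc⟩
  · have h3 := flag_conj hW h χ' w'' h2
    rw [h1, one_smul, hw', zero_smul, add_zero] at h3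
    have h4 := flag_sub_right h h3
    rwa [sub_sub_cancel] at h4
  · exfalso
    have hc0 : c ≠ 0 := by
      rintro rfl
      exact hχ (by rw [hc, zero_smul])
    exact hn c⁻¹ (by rw [hc, smul_smul, inv_mul_cancel₀ hc0, one_smul])

theorem flag_ii [FiniteDimensional F W] (hb : 3 ≤ finrank F W) (hW : HW M) {A : U →ₗ[F] U}
    {w : W} {χ χ' : Dual F W}
    (h : ZX M w (A ∘ₗ ev U χ)) (hχ : χ ≠ 0) (hw' : χ' w = 0) :
    ZX M w (A ∘ₗ ev U χ') := by
  by_cases hn : ∀ c : F, χ' ≠ c • χ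
  · exact flag_ii_aux hW h hχ hw' hn
  · push Not at hn
    obtain ⟨c, hc⟩ := hn
    obtain ⟨χ₃, hχ₃, hn₃⟩ := alg_exists_ker_not_span (F := F) (W := Dual F W)
      (by rw [Subspace.dual_finrank_eq]; exact hb) (Dual.eval F W w) χ
    have hχ₃' : χ₃ w = 0 := hχ₃
    have h1 := flag_ii_aux hW h hχ hχ₃' hn₃
    have h2 : ZX M w (A ∘ₗ ev U (χ' - χ₃)) := by
      apply flag_ii_aux hW h hχ (by rw [LinearMap.sub_apply, hw', hχ₃', sub_zero])
      intro c' hc'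
      apply hn₃ (c - c')
      rw [sub_smul, ← hc, ← hc', sub_sub_cancel]
    have h3 := flag_add_right h2 h1
    rwa [sub_add_cancel] at h3

theorem flag_exists_ker_ker [FiniteDimensional F W] (hb : 3 ≤ finrank F W) (χ χ' : Dual F W) :
    ∃ w : W, w ≠ 0 ∧ χ w = 0 ∧ χ' w = 0 := by
  have h1 := LinearMap.finrank_range_add_finrank_ker (χ.prod χ')
  have h2 : finrank F (LinearMap.range (χ.prod χ')) ≤ 2 := by
    have := Submodule.finrank_le (LinearMap.range (χ.prod χ'))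
    rwa [Module.finrank_prod, finrank_self] at this
  have h3 : 0 < finrank F (LinearMap.ker (χ.prod χ')) := by omega
  obtain ⟨⟨x, hx⟩, hx0⟩ := finrank_pos_iff_exists_ne_zero.mp h3
  rw [LinearMap.mem_ker, LinearMap.prod_apply, Prod.mk_eq_zero] at hx
  exact ⟨x, fun e => hx0 (Subtype.ext e), hx.1, hx.2⟩

theorem mem_SS_of_flag [FiniteDimensional F W] (hb : 3 ≤ finrank F W) (hW : HW M)
    {A : U →ₗ[F] U} {w₀ : W} {χ₀ : Dual F W} (hw : w₀ ≠ 0) (hχ : χ₀ ≠ 0) (h0 : χ₀ w₀ = 0)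
    (h : ZX M w₀ (A ∘ₗ ev U χ₀)) : A ∈ SS M := by
  intro w χ hwχ
  obtain ⟨wm, hm0, hm1, hm2⟩ := flag_exists_ker_ker hb χ₀ χ
  have h1 := flag_i hb hW h hw hm1
  have h2 := flag_ii hb hW h1 hχ hm2
  exact flag_i hb hW h2 hm0 hwχ

end Cfsg.Agent.Lib.Helper59.TP
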