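import Cfsg.Agent.Lib.Helper59.TP.Defs

set_option autoImplicit false

namespace Cfsg.Agent.Lib.Helper59.TP

open TensorProduct Module Cfsg.Agent.Lib.Helper95 Cfsg.Agent.Lib.Helper97

variable {F U W : Type*} [Field F] [AddCommGroup U] [Module F U] [AddCommGroup W] [Module F W]
variable {M : Subgroup ((U ⊗[F] W) ≃ₗ[F] (U ⊗[F] W))}

lemma k1a_exists_dual_one {w : W} (hw : w ≠ 0) : ∃ χ : Dual F W, χ w = 1 := by
  obtain ⟨φ, hφ⟩ : ∃ φ : Dual F W, φ w ≠ 0 := by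
    by_contra hcon
    push Not at hcon
    exact hw ((Module.forall_dual_apply_eq_zero_iff F w).1 hcon)
  exact ⟨(φ w)⁻¹ • φ, by simp [hφ]⟩

lemma k1a_root_apply {w : W} {ψ : Dual F W} (hψ : ψ w = 0) (v : U ⊗[F] W) :
    TensorProduct.congr (LinearEquiv.refl F U) (LinearEquiv.transvection hψ) v
      = v + ev U ψ v ⊗ₜ[F] w := by
  have h : (TensorProduct.congr (LinearEquiv.refl F U) (LinearEquiv.transvection hψ)).toLinearMap
      = LinearMap.id + ins F U w ∘ₗ ev U ψ := by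
    apply TensorProduct.ext'
    intro a b
    simp [LinearMap.transvection.apply, TensorProduct.tmul_add]
  exact LinearMap.congr_fun h v

theorem exists_C {w : W} (hw : w ≠ 0) (y : (U ⊗[F] W) ≃ₗ[F] (U ⊗[F] W))
    (hyw : (II F U w).map y.toLinearMap = II F U w) :
    ∃ C : U ≃ₗ[F] U, ∀ u, y (u ⊗ₜ[F] w) = C u ⊗ₜ[F] w := by
  obtain ⟨χ, hχ⟩ := k1a_exists_dual_one (F := F) hw
  have hev : ∀ u : U, ev U χ (u ⊗ₜ[F] w) = u := fun u => by rw [ev_tmul, hχ, one_smul]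
  have h1 : ∀ u : U, y (u ⊗ₜ[F] w) = ev U χ (y (u ⊗ₜ[F] w)) ⊗ₜ[F] w := by
    intro u
    have hmem : y (u ⊗ₜ[F] w) ∈ II F U w := by
      rw [← hyw]
      exact Submodule.mem_map_of_mem (tmul_mem_II U w u)
    obtain ⟨u', hu'⟩ := (mem_II U).1 hmem
    rw [← hu', hev]
  have h2 : ∀ u : U, y.symm (u ⊗ₜ[F] w) = ev U χ (y.symm (u ⊗ₜ[F] w)) ⊗ₜ[F] w := by
    intro u
    have hmem : u ⊗ₜ[F] w ∈ (II F U w).map y.toLinearMap := by
      rw [hyw]; exact tmul_mem_II U w u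
    obtain ⟨v, hv, hyv⟩ := Submodule.mem_map.1 hmem
    have hyv' : y v = u ⊗ₜ[F] w := hyv
    obtain ⟨u', hu'⟩ := (mem_II U).1 hv
    rw [← hyv', y.symm_apply_apply, ← hu', hev]
  let C₀ : U →ₗ[F] U := ev U χ ∘ₗ y.toLinearMap ∘ₗ ins F U w
  let D₀ : U →ₗ[F] U := ev U χ ∘ₗ y.symm.toLinearMap ∘ₗ ins F U w
  have hC : ∀ u, y (u ⊗ₜ[F] w) = C₀ u ⊗ₜ[F] w := h1
  have hD : ∀ u, y.symm (u ⊗ₜ[F] w) = D₀ u ⊗ₜ[F] w := h2
  refine ⟨LinearEquiv.ofLinearMap C₀ D₀ ?_ ?_, hC⟩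
  · ext u
    have : C₀ (D₀ u) ⊗ₜ[F] w = u ⊗ₜ[F] w := by
      rw [← hC, ← hD, y.apply_symm_apply]
    have h3 := congrArg (ev U χ) this
    rwa [hev, hev] at h3
  · ext u
    have : D₀ (C₀ u) ⊗ₜ[F] w = u ⊗ₜ[F] w := by
      rw [← hD, ← hC, y.symm_apply_apply]
    have h3 := congrArg (ev U χ) this
    rwa [hev, hev] at h3

theorem ZX_conj_stab (hW : HW M) {w : W} {y : (U ⊗[F] W) ≃ₗ[F] (U ⊗[F] W)} (hy : y ∈ M)
    (C : U ≃ₗ[F] U) (hC : ∀ u, y (u ⊗ₜ[F] w) = C u ⊗ₜ[F] w) {ψ : Dual F W} (hψ : ψ w = 0) :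
    ZX M w (C.toLinearMap ∘ₗ ev U ψ ∘ₗ y.symm.toLinearMap) := by
  constructor
  · intro u
    have h1 : y.symm (u ⊗ₜ[F] w) = C.symm u ⊗ₜ[F] w := by
      rw [LinearEquiv.symm_apply_eq, hC, C.apply_symm_apply]
    simp only [LinearMap.comp_apply, LinearEquiv.coe_coe]
    rw [h1, ev_tmul, hψ, zero_smul, map_zero]
  · refine ⟨y * TensorProduct.congr (LinearEquiv.refl F U) (LinearEquiv.transvection hψ) * y⁻¹,
      M.mul_mem (M.mul_mem hy (hW ψ w hψ)) (M.inv_mem hy), fun v => ?_⟩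
    have hinv : y⁻¹ v = y.symm v := rfl
    rw [LinearEquiv.mul_apply, LinearEquiv.mul_apply, k1a_root_apply, map_add, hC, hinv,
      y.apply_symm_apply]
    rfl

end Cfsg.Agent.Lib.Helper59.TP
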