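import Cfsg.Agent.Lib.Helper59.TP.K1A
import Cfsg.Agent.Lib.Helper59.TP.BAS

set_option autoImplicit false

namespace Cfsg.Agent.Lib.Helper59.TP

open TensorProduct Module Cfsg.Agent.Lib.Helper95 Cfsg.Agent.Lib.Helper97

variable {F U W : Type*} [Field F] [AddCommGroup U] [Module F U] [AddCommGroup W] [Module F W]
variable {M : Subgroup ((U ⊗[F] W) ≃ₗ[F] (U ⊗[F] W))}

/-- `u ⊗ w ↦ φ u • w`. -/
def k1b_evL (φ : Dual F U) : U ⊗[F] W →ₗ[F] W :=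
  (TensorProduct.lid F W).toLinearMap ∘ₗ LinearMap.rTensor W φ

lemma k1b_evL_tmul (φ : Dual F U) (u : U) (w : W) : k1b_evL φ (u ⊗ₜ[F] w) = φ u • w := by
  simp [k1b_evL]

lemma k1b_swap (φ : Dual F U) (ψ : Dual F W) (v : U ⊗[F] W) :
    ψ (k1b_evL φ v) = φ (ev U ψ v) := by
  have : ψ ∘ₗ k1b_evL φ = φ ∘ₗ ev U ψ := by
    apply TensorProduct.ext'
    intro a b
    simp [k1b_evL_tmul, mul_comm]
  exact LinearMap.congr_fun this v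

theorem exists_factor [FiniteDimensional F U] [FiniteDimensional F W] (ha : 0 < finrank F U)
    {w : W} (hw : w ≠ 0) (y' : (U ⊗[F] W) ≃ₗ[F] (U ⊗[F] W))
    (hfix : ∀ u, y' (u ⊗ₜ[F] w) = u ⊗ₜ[F] w)
    (hev : ∀ ψ' : Dual F W, ψ' w = 0 → ∃ ψ : Dual F W, ev U ψ' ∘ₗ y'.toLinearMap = ev U ψ) :
    ∃ (s : W ≃ₗ[F] W) (Λ : U ⊗[F] W →ₗ[F] U), s w = w ∧ (∀ u, Λ (u ⊗ₜ[F] w) = 0) ∧
      ∀ v, y' v = TensorProduct.congr (LinearEquiv.refl F U) s (v + Λ v ⊗ₜ[F] w) := by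
  obtain ⟨u₀, hu₀⟩ := Module.finrank_pos_iff_exists_ne_zero.1 ha
  obtain ⟨φ₀, hφ₀⟩ := k1a_exists_dual_one (F := F) hu₀
  obtain ⟨χ₀, hχ₀⟩ := k1a_exists_dual_one (F := F) hw
  let s₀ : W →ₗ[F] W := k1b_evL φ₀ ∘ₗ y'.toLinearMap ∘ₗ (TensorProduct.mk F U W u₀)
  have hs₀ : ∀ w', s₀ w' = k1b_evL φ₀ (y' (u₀ ⊗ₜ[F] w')) := fun _ => rfl
  have hs₀w : s₀ w = w := by rw [hs₀, hfix, k1b_evL_tmul, hφ₀, one_smul]
  let T₀ : U ⊗[F] W →ₗ[F] U ⊗[F] W := LinearMap.lTensor U s₀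
  have hT₀ : ∀ a b, T₀ (a ⊗ₜ[F] b) = a ⊗ₜ[F] s₀ b := fun a b => by simp [T₀]
  have hkey : ∀ v, y' v - T₀ v ∈ II F U w := by
    intro v
    apply mem_II_of_ev hw
    intro ψ' hψ'
    obtain ⟨ψ, hψ⟩ := hev ψ' hψ'
    have h1 : ∀ x, ev U ψ' (y' x) = ev U ψ x := fun x => LinearMap.congr_fun hψ x
    have h2 : ∀ w', ψ' (s₀ w') = ψ w' := by
      intro w'
      rw [hs₀, k1b_swap, h1, ev_tmul, map_smul, hφ₀, smul_eq_mul, mul_one]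
    have h3 : ev U ψ' ∘ₗ T₀ = ev U ψ := by
      apply TensorProduct.ext'
      intro a b
      rw [LinearMap.comp_apply, hT₀, ev_tmul, ev_tmul, h2]
    rw [map_sub, h1, ← h3, LinearMap.comp_apply, sub_self]
  have hinj : Function.Injective s₀ := by
    rw [← LinearMap.ker_eq_bot, LinearMap.ker_eq_bot']
    intro w' hw'
    have h1 := hkey (u₀ ⊗ₜ[F] w')
    have h2 : T₀ (u₀ ⊗ₜ[F] w') = 0 := by rw [hT₀, hw', TensorProduct.tmul_zero]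
    rw [h2, sub_zero] at h1
    obtain ⟨u, hu⟩ := (mem_II U).1 h1
    have h3 : u₀ ⊗ₜ[F] w' = u ⊗ₜ[F] w := by
      apply y'.injective
      rw [hfix, hu]
    have h4 := congrArg (k1b_evL φ₀) h3
    rw [k1b_evL_tmul, k1b_evL_tmul, hφ₀, one_smul] at h4
    have h5 : s₀ w' = w' := by rw [h4, map_smul, hs₀w]
    rw [← h5, hw']
  let s : W ≃ₗ[F] W := LinearEquiv.ofInjectiveEndo s₀ hinj
  have hs : ∀ x, s x = s₀ x := fun x => rfl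
  set T := TensorProduct.congr (LinearEquiv.refl F U) s with hT
  have hTp : ∀ a b, T (a ⊗ₜ[F] b) = a ⊗ₜ[F] s₀ b := fun a b => by
    rw [hT, TensorProduct.congr_tmul, hs]; rfl
  have hTT : ∀ v, T v = T₀ v := by
    intro v
    have : T.toLinearMap = T₀ := by
      apply TensorProduct.ext'
      intro a b
      rw [hT₀, LinearEquiv.coe_coe, hTp]
    exact LinearMap.congr_fun this v
  have hTw : ∀ u, T (u ⊗ₜ[F] w) = u ⊗ₜ[F] w := by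
    intro u
    rw [hTp, hs₀w]
  have hTsw : ∀ u, T.symm (u ⊗ₜ[F] w) = u ⊗ₜ[F] w := by
    intro u
    rw [LinearEquiv.symm_apply_eq, hTw]
  let Λ : U ⊗[F] W →ₗ[F] U := ev U χ₀ ∘ₗ (T.symm.toLinearMap ∘ₗ y'.toLinearMap - LinearMap.id)
  have hΛ : ∀ v, Λ v = ev U χ₀ (T.symm (y' v) - v) := fun v => rfl
  have hΛw : ∀ v, T.symm (y' v) - v = Λ v ⊗ₜ[F] w := by
    intro v
    obtain ⟨u, hu⟩ := (mem_II U).1 (hkey v)
    have h1 : T.symm (y' v) - v = u ⊗ₜ[F] w := by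
      have : T.symm (y' v - T₀ v) = T.symm (y' v) - v := by
        rw [map_sub, ← hTT, T.symm_apply_apply]
      rw [← this, ← hu, hTsw]
    rw [hΛ, h1, ev_tmul, hχ₀, one_smul]
  refine ⟨s, Λ, by rw [hs, hs₀w], ?_, ?_⟩
  · intro u
    rw [hΛ, hfix, hTsw, sub_self, map_zero]
  · intro v
    rw [← hΛw, add_sub_cancel, T.apply_symm_apply]

end Cfsg.Agent.Lib.Helper59.TP
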