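import Cfsg.Agent.Lib.Helper59.TP.K1A
import Cfsg.Agent.Lib.Helper59.TP.K1B
import Cfsg.Agent.Lib.Helper59.TP.DET

set_option autoImplicit false

namespace Cfsg.Agent.Lib.Helper59.TP

open TensorProduct Module Cfsg.Agent.Lib.Helper95 Cfsg.Agent.Lib.Helper97

variable {F U W : Type*} [Field F] [AddCommGroup U] [Module F U] [AddCommGroup W] [Module F W]
variable {M : Subgroup ((U ⊗[F] W) ≃ₗ[F] (U ⊗[F] W))}

theorem stab_le_NT [Fintype F] [FiniteDimensional F U] [FiniteDimensional F W]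
    (ha : 0 < finrank F U) (hM : NT F U W ⊓ slGrp F (U ⊗[F] W) ≤ M)
    (hMs : M ≤ slGrp F (U ⊗[F] W)) (hstd : Std M) {w : W} (hw : w ≠ 0)
    {y : (U ⊗[F] W) ≃ₗ[F] (U ⊗[F] W)} (hy : y ∈ M)
    (hyw : (II F U w).map y.toLinearMap = II F U w) : y ∈ NT F U W := by
  have hW : HW M := HW_of_le hM
  obtain ⟨C, hC⟩ := exists_C hw y hyw
  set c := TensorProduct.congr C (LinearEquiv.refl F W) with hc
  have hcp : ∀ a b, c (a ⊗ₜ[F] b) = C a ⊗ₜ[F] b := fun a b => by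
    rw [hc, TensorProduct.congr_tmul]; rfl
  have hcs : ∀ a b, c.symm (a ⊗ₜ[F] b) = C.symm a ⊗ₜ[F] b := fun a b => by
    rw [LinearEquiv.symm_apply_eq, hcp, C.apply_symm_apply]
  have hinv : ∀ (e : (U ⊗[F] W) ≃ₗ[F] (U ⊗[F] W)) v, e⁻¹ v = e.symm v := fun _ _ => rfl
  have hfix : ∀ u, (c⁻¹ * y) (u ⊗ₜ[F] w) = u ⊗ₜ[F] w := by
    intro u
    rw [LinearEquiv.mul_apply, hC, hinv, hcs, C.symm_apply_apply]
  have hevc : ∀ (ψ' : Dual F W) x, ev U ψ' (c.symm x) = C.symm (ev U ψ' x) := by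
    intro ψ' x
    have : ev U ψ' ∘ₗ c.symm.toLinearMap = C.symm.toLinearMap ∘ₗ ev U ψ' := by
      apply TensorProduct.ext'
      intro a b
      simp only [LinearMap.comp_apply, LinearEquiv.coe_coe]
      rw [hcs, ev_tmul, ev_tmul, map_smul]
    exact LinearMap.congr_fun this x
  have hev : ∀ ψ' : Dual F W, ψ' w = 0 →
      ∃ ψ : Dual F W, ev U ψ' ∘ₗ (c⁻¹ * y).toLinearMap = ev U ψ := by
    intro ψ' hψ'
    have hC' : ∀ u, y⁻¹ (u ⊗ₜ[F] w) = C.symm u ⊗ₜ[F] w := by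
      intro u
      rw [hinv, LinearEquiv.symm_apply_eq, hC, C.apply_symm_apply]
    have hz := ZX_conj_stab hW (M.inv_mem hy) C.symm hC' hψ'
    obtain ⟨ψ, hψ⟩ := hstd w _ hw hz
    refine ⟨ψ, ?_⟩
    rw [← hψ]
    ext1
    ext a b
    simp only [LinearMap.comp_apply, LinearEquiv.coe_coe, LinearEquiv.mul_apply, hinv, hevc,
      TensorProduct.AlgebraTensorModule.curry_apply, TensorProduct.curry_apply,
      LinearMap.coe_restrictScalars]
    rfl
  obtain ⟨s, Λ, hsw, hΛ0, hfac⟩ := exists_factor ha hw (c⁻¹ * y) hfix hev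
  set d := TensorProduct.congr C s with hd
  have hdc : ∀ x, d x = c (TensorProduct.congr (LinearEquiv.refl F U) s x) := by
    intro x
    have : d.toLinearMap
        = c.toLinearMap ∘ₗ (TensorProduct.congr (LinearEquiv.refl F U) s).toLinearMap := by
      apply TensorProduct.ext'
      intro a b
      simp [hd, hc]
    exact LinearMap.congr_fun this x
  have hz : ∀ v, (d⁻¹ * y) v = v + Λ v ⊗ₜ[F] w := by
    intro v
    have h1 : y v = c ((c⁻¹ * y) v) := by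
      rw [LinearEquiv.mul_apply, hinv, c.apply_symm_apply]
    rw [LinearEquiv.mul_apply, hinv, LinearEquiv.symm_apply_eq, hdc, ← hfac, ← h1]
  have hzS : d⁻¹ * y ∈ slGrp F (U ⊗[F] W) := mem_slGrp_of_unipotent _ w Λ hΛ0 hz
  have hdS : d ∈ slGrp F (U ⊗[F] W) := by
    have h1 : d = y * (d⁻¹ * y)⁻¹ := by group
    rw [h1]
    exact (slGrp F _).mul_mem (hMs hy) ((slGrp F _).inv_mem hzS)
  have hdN : d ∈ NT F U W := congr_mem_NT C s
  have hdM : d ∈ M := hM ⟨hdN, hdS⟩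
  have hzM : d⁻¹ * y ∈ M := M.mul_mem (M.inv_mem hdM) hy
  obtain ⟨ψ₀, hψ₀⟩ := hstd w Λ hw ⟨hΛ0, _, hzM, hz⟩
  obtain ⟨u₀, hu₀⟩ := Module.finrank_pos_iff_exists_ne_zero.1 ha
  have hψw : ψ₀ w = 0 := by
    have h1 := hΛ0 u₀
    rw [hψ₀, ev_tmul] at h1
    rcases smul_eq_zero.1 h1 with h | h
    · exact h
    · exact absurd h hu₀
  have hzN : d⁻¹ * y ∈ NT F U W := by
    have : d⁻¹ * y = TensorProduct.congr (LinearEquiv.refl F U) (LinearEquiv.transvection hψw) := by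
      apply LinearEquiv.ext
      intro v
      rw [hz, k1a_root_apply, hψ₀]
    rw [this]
    exact congr_mem_NT _ _
  have : y = d * (d⁻¹ * y) := by group
  rw [this]
  exact (NT F U W).mul_mem hdN hzN

end Cfsg.Agent.Lib.Helper59.TP
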