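import Cfsg.Agent.Lib.Helper59.TP.BAS

set_option autoImplicit false

/-! Rung K2 of the S5637 ladder. -/

namespace Cfsg.Agent.Lib.Helper59.TP

open TensorProduct Module Cfsg.Agent.Lib.Helper95 Cfsg.Agent.Lib.Helper97

variable {F U W : Type*} [Field F] [AddCommGroup U] [Module F U] [AddCommGroup W] [Module F W]
variable {M : Subgroup ((U ⊗[F] W) ≃ₗ[F] (U ⊗[F] W))}

/-- a functional with `χ x = 1`, `χ y = 0` when `x ∉ span {y}`. -/
theorem k2_exists_dual {X : Type*} [AddCommGroup X] [Module F X] {x y : X}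
    (h : x ∉ Submodule.span F {y}) : ∃ χ : Dual F X, χ x = 1 ∧ χ y = 0 := by
  obtain ⟨φ, hφ, hφ0⟩ := Submodule.exists_dual_map_eq_bot_of_notMem h inferInstance
  have hy : φ y = 0 := by
    have : φ y ∈ (Submodule.span F {y}).map φ := ⟨y, Submodule.mem_span_singleton_self y, rfl⟩
    rw [hφ0] at this
    simpa using this
  exact ⟨(φ x)⁻¹ • φ, by simp [hφ], by simp [hy]⟩

theorem mem_NT_of_map_II (hW : HW M)
    (k1 : ∀ (w : W), w ≠ 0 → ∀ y ∈ M, (II F U w).map y.toLinearMap = II F U w → y ∈ NT F U W)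
    {w₁ w₂ : W} (h1 : w₁ ≠ 0) (h2 : w₂ ≠ 0) {m : (U ⊗[F] W) ≃ₗ[F] (U ⊗[F] W)} (hm : m ∈ M)
    (h : (II F U w₁).map m.toLinearMap = II F U w₂) : m ∈ NT F U W := by
  by_cases hs : w₂ ∈ Submodule.span F {w₁}
  · obtain ⟨c, rfl⟩ := Submodule.mem_span_singleton.mp hs
    have hc : c ≠ 0 := by
      rintro rfl; simp at h2
    rw [II_smul hc] at h
    exact k1 w₁ h1 m hm h
  · have hs' : w₁ ∉ Submodule.span F {w₂} := by
      intro h'
      obtain ⟨c, hc⟩ := Submodule.mem_span_singleton.mp h'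
      have hc0 : c ≠ 0 := by
        rintro rfl; simp at hc; exact h1 hc.symm
      apply hs
      rw [Submodule.mem_span_singleton]
      exact ⟨c⁻¹, by rw [← hc, smul_smul, inv_mul_cancel₀ hc0, one_smul]⟩
    obtain ⟨χa, ha2, ha1⟩ := k2_exists_dual hs
    obtain ⟨χb, hb1, hb2⟩ := k2_exists_dual hs'
    have h0 : (χa + χb) (w₁ - w₂) = 0 := by
      simp [ha1, ha2, hb1, hb2]
    have hc : TensorProduct.congr (LinearEquiv.refl F U) (LinearEquiv.transvection h0) ∈ M :=
      hW _ _ h0
    have hσ : LinearEquiv.transvection h0 w₂ = w₁ := by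
      rw [LinearEquiv.transvection.apply]
      simp [ha2, hb2]
    have hcm : TensorProduct.congr (LinearEquiv.refl F U) (LinearEquiv.transvection h0) * m
        ∈ NT F U W := by
      apply k1 w₁ h1 _ (M.mul_mem hc hm)
      have : (TensorProduct.congr (LinearEquiv.refl F U) (LinearEquiv.transvection h0) *
          m).toLinearMap = (TensorProduct.congr (LinearEquiv.refl F U)
            (LinearEquiv.transvection h0)).toLinearMap ∘ₗ m.toLinearMap := rfl
      rw [this, Submodule.map_comp, h, map_congr_II, hσ]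
    have := (NT F U W).mul_mem ((NT F U W).inv_mem (congr_mem_NT (LinearEquiv.refl F U)
      (LinearEquiv.transvection h0))) hcm
    rwa [inv_mul_cancel_left] at this

end Cfsg.Agent.Lib.Helper59.TP
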