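import Cfsg.Agent.Lib.Helper59.TP.Defs

set_option autoImplicit false

/-! Rung ZXC of the S5637 ladder: calculus of the elements `v ↦ v + Λ v ⊗ w`. -/

namespace Cfsg.Agent.Lib.Helper59.TP

open TensorProduct Module Cfsg.Agent.Lib.Helper95 Cfsg.Agent.Lib.Helper97

variable {F U W : Type*} [Field F] [AddCommGroup U] [Module F U] [AddCommGroup W] [Module F W]
variable {M : Subgroup ((U ⊗[F] W) ≃ₗ[F] (U ⊗[F] W))}

theorem ZX.zero_right (w : W) : ZX M w 0 :=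
  ⟨fun _ => rfl, 1, M.one_mem, fun v => by simp⟩

theorem ZX.zero_left (Λ : U ⊗[F] W →ₗ[F] U) : ZX M 0 Λ :=
  ⟨fun u => by simp, 1, M.one_mem, fun v => by simp⟩

theorem ZX.add {w : W} {Λ Λ' : U ⊗[F] W →ₗ[F] U} (h : ZX M w Λ) (h' : ZX M w Λ') :
    ZX M w (Λ + Λ') := by
  obtain ⟨h0, e, he, hv⟩ := h
  obtain ⟨h0', e', he', hv'⟩ := h'
  refine ⟨fun u => by simp [h0, h0'], e * e', M.mul_mem he he', fun v => ?_⟩
  rw [LinearEquiv.mul_apply, hv', hv, map_add, h0, add_zero, LinearMap.add_apply,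
    TensorProduct.add_tmul]
  abel

theorem ZX.neg {w : W} {Λ : U ⊗[F] W →ₗ[F] U} (h : ZX M w Λ) : ZX M w (-Λ) := by
  obtain ⟨h0, e, he, hv⟩ := h
  refine ⟨fun u => by simp [h0], e⁻¹, M.inv_mem he, fun v => ?_⟩
  have h1 : e (v + (-Λ) v ⊗ₜ[F] w) = v := by
    rw [hv, map_add, h0, add_zero, LinearMap.neg_apply, TensorProduct.neg_tmul]
    abel
  have h2 : (e⁻¹ : (U ⊗[F] W) ≃ₗ[F] (U ⊗[F] W)) v = e.symm v := rfl
  rw [h2, LinearEquiv.symm_apply_eq, h1]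

theorem ZX.sub {w : W} {Λ Λ' : U ⊗[F] W →ₗ[F] U} (h : ZX M w Λ) (h' : ZX M w Λ') :
    ZX M w (Λ - Λ') := by
  rw [sub_eq_add_neg]; exact h.add h'.neg

theorem ZX.add_left {w w' : W} {Λ : U ⊗[F] W →ₗ[F] U} (h : ZX M w Λ) (h' : ZX M w' Λ) :
    ZX M (w + w') Λ := by
  obtain ⟨h0, e, he, hv⟩ := h
  obtain ⟨h0', e', he', hv'⟩ := h'
  refine ⟨fun u => by rw [TensorProduct.tmul_add, map_add, h0, h0', add_zero], e * e',
    M.mul_mem he he', fun v => ?_⟩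
  rw [LinearEquiv.mul_apply, hv', hv, map_add, h0', add_zero, TensorProduct.tmul_add]
  abel

theorem ZX_smul_comm {w : W} {Λ : U ⊗[F] W →ₗ[F] U} (c : F) :
    ZX M (c • w) Λ ↔ ZX M w (c • Λ) := by
  constructor
  · rintro ⟨h0, e, he, hv⟩
    refine ⟨fun u => ?_, e, he, fun v => ?_⟩
    · rw [LinearMap.smul_apply, ← map_smul, ← TensorProduct.tmul_smul]; exact h0 u
    · rw [hv, LinearMap.smul_apply, TensorProduct.tmul_smul, TensorProduct.smul_tmul']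
  · rintro ⟨h0, e, he, hv⟩
    refine ⟨fun u => ?_, e, he, fun v => ?_⟩
    · have := h0 u
      rw [LinearMap.smul_apply, ← map_smul, ← TensorProduct.tmul_smul] at this
      exact this
    · rw [hv, LinearMap.smul_apply, TensorProduct.tmul_smul, TensorProduct.smul_tmul']

theorem ZX.neg_left {w : W} {Λ : U ⊗[F] W →ₗ[F] U} (h : ZX M w Λ) : ZX M (-w) Λ := by
  have h1 : ZX M w ((-1 : F) • Λ) := by
    rw [neg_one_smul]; exact h.neg
  have h2 := (ZX_smul_comm (M := M) (w := w) (Λ := Λ) (-1 : F)).mpr h1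
  rwa [neg_one_smul] at h2

theorem ZX.sub_left {w w' : W} {Λ : U ⊗[F] W →ₗ[F] U} (h : ZX M w Λ) (h' : ZX M w' Λ) :
    ZX M (w - w') Λ := by
  rw [sub_eq_add_neg]; exact h.add_left h'.neg_left

theorem ZX.conj {w : W} {Λ : U ⊗[F] W →ₗ[F] U} (h : ZX M w Λ) (t : U ≃ₗ[F] U) (s : W ≃ₗ[F] W)
    (hts : TensorProduct.congr t s ∈ M) :
    ZX M (s w) (t.toLinearMap ∘ₗ Λ ∘ₗ (TensorProduct.congr t s).symm.toLinearMap) := by
  obtain ⟨h0, e, he, hv⟩ := h
  refine ⟨fun u => ?_, TensorProduct.congr t s * e * (TensorProduct.congr t s)⁻¹,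
    M.mul_mem (M.mul_mem hts he) (M.inv_mem hts), fun v => ?_⟩
  · have h1 : (TensorProduct.congr t s).symm (u ⊗ₜ[F] s w) = t.symm u ⊗ₜ[F] w := by
      rw [LinearEquiv.symm_apply_eq]; simp
    simp only [LinearMap.comp_apply, LinearEquiv.coe_coe, h1, h0, map_zero]
  · have h2 : ((TensorProduct.congr t s)⁻¹ : (U ⊗[F] W) ≃ₗ[F] (U ⊗[F] W)) v
        = (TensorProduct.congr t s).symm v := rfl
    rw [LinearEquiv.mul_apply, LinearEquiv.mul_apply, h2, hv, map_add,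
      LinearEquiv.apply_symm_apply, TensorProduct.congr_tmul]
    rfl

theorem root_apply {w : W} {ψ : Dual F W} (h : ψ w = 0) (v : U ⊗[F] W) :
    TensorProduct.congr (LinearEquiv.refl F U) (LinearEquiv.transvection h) v
      = v + ev U ψ v ⊗ₜ[F] w := by
  induction v using TensorProduct.induction_on with
  | zero => simp
  | tmul u x =>
    rw [TensorProduct.congr_tmul, LinearEquiv.transvection.apply, ev_tmul, LinearEquiv.refl_apply,
      TensorProduct.tmul_add, TensorProduct.tmul_smul, TensorProduct.smul_tmul']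
  | add x y hx hy =>
    rw [map_add, hx, hy, map_add, TensorProduct.add_tmul]
    abel

theorem ZX_ev (hW : HW M) {w : W} {ψ : Dual F W} (h : ψ w = 0) : ZX M w (ev U ψ) :=
  ⟨fun u => by rw [ev_tmul, h, zero_smul], _, hW ψ w h, root_apply h⟩

theorem ZX.toTX {w : W} {u : U} {f : Dual F (U ⊗[F] W)} (h : ZX M w (f.smulRight u)) :
    TX M (u ⊗ₜ[F] w) f := by
  obtain ⟨h0, e, he, hv⟩ := h
  by_cases hu : u = 0
  · subst hu
    rw [TensorProduct.zero_tmul]; exact TX_zero_left f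
  refine TX_of_eq ?_ he (fun x => ?_)
  · have := h0 u
    rw [LinearMap.smulRight_apply] at this
    exact (smul_eq_zero.mp this).resolve_right hu
  · rw [hv, LinearMap.smulRight_apply, TensorProduct.smul_tmul']

theorem ZX.comm {w₁ w₂ : W} {χ₁ χ₂ : Dual F W} {A B : U →ₗ[F] U}
    (h1 : ZX M w₁ (A ∘ₗ ev U χ₁)) (h2 : ZX M w₂ (B ∘ₗ ev U χ₂))
    (h11 : χ₁ w₁ = 0) (h22 : χ₂ w₂ = 0) (h21 : χ₂ w₁ = 0) :
    ZX M w₁ (χ₁ w₂ • (A ∘ₗ B ∘ₗ ev U χ₂)) := by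
  obtain ⟨-, x, hx, hxv⟩ := h1
  obtain ⟨-, y, hy, hyv⟩ := h2
  obtain ⟨-, x', hx', hxv'⟩ := (ZX.neg ⟨fun u => by simp [h11], x, hx, hxv⟩ :
    ZX M w₁ (-(A ∘ₗ ev U χ₁)))
  obtain ⟨-, y', hy', hyv'⟩ := (ZX.neg ⟨fun u => by simp [h22], y, hy, hyv⟩ :
    ZX M w₂ (-(B ∘ₗ ev U χ₂)))
  refine ⟨fun u => by simp [h21], x * y * x' * y',
    M.mul_mem (M.mul_mem (M.mul_mem hx hy) hx') hy', fun v => ?_⟩
  simp only [LinearEquiv.mul_apply, hxv, hyv, hxv', hyv', map_add, LinearMap.neg_apply,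
    LinearMap.comp_apply, ev_tmul, h11, h22, h21, zero_smul, map_zero, add_zero, map_neg,
    TensorProduct.neg_tmul, TensorProduct.zero_tmul, LinearMap.smul_apply, map_smul, smul_neg,
    neg_zero, neg_neg, TensorProduct.add_tmul]
  abel_nf

end Cfsg.Agent.Lib.Helper59.TP
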