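import Cfsg.Agent.Lib.Helper59.TP.RANK
import Cfsg.Agent.Lib.Helper59.TP.ZXC

set_option autoImplicit false

/-! Rung K3 of the S5637 ladder. -/

namespace Cfsg.Agent.Lib.Helper59.TP

open TensorProduct Module Cfsg.Agent.Lib.Helper95 Cfsg.Agent.Lib.Helper97

variable {F U W : Type*} [Field F] [AddCommGroup U] [Module F U] [AddCommGroup W] [Module F W]
variable {M : Subgroup ((U ⊗[F] W) ≃ₗ[F] (U ⊗[F] W))}

theorem k3_conj_apply (m : (U ⊗[F] W) ≃ₗ[F] (U ⊗[F] W)) {w : W} {ψ : Dual F W} (h : ψ w = 0)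
    (v : U ⊗[F] W) :
    (m⁻¹ * TensorProduct.congr (LinearEquiv.refl F U) (LinearEquiv.transvection h) * m) v
      = v + m.symm (ev U ψ (m v) ⊗ₜ[F] w) := by
  have h2 : ∀ x, (m⁻¹ : (U ⊗[F] W) ≃ₗ[F] (U ⊗[F] W)) x = m.symm x := fun _ => rfl
  rw [LinearEquiv.mul_apply, LinearEquiv.mul_apply, root_apply, h2, map_add,
    LinearEquiv.symm_apply_apply]

theorem k3_range (m : (U ⊗[F] W) ≃ₗ[F] (U ⊗[F] W)) {w : W} {ψ : Dual F W} (hψ : ψ ≠ 0)
    (h : ψ w = 0) :
    LinearMap.range ((m⁻¹ * TensorProduct.congr (LinearEquiv.refl F U)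
      (LinearEquiv.transvection h) * m).toLinearMap - LinearMap.id)
      = (II F U w).map m.symm.toLinearMap := by
  obtain ⟨w', hw'⟩ : ∃ w', ψ w' ≠ 0 := by
    by_contra hcon
    push Not at hcon
    exact hψ (LinearMap.ext hcon)
  ext x
  rw [LinearMap.mem_range, Submodule.mem_map]
  constructor
  · rintro ⟨v, rfl⟩
    refine ⟨ev U ψ (m v) ⊗ₜ[F] w, tmul_mem_II U w _, ?_⟩
    rw [LinearMap.sub_apply, LinearEquiv.coe_coe, LinearEquiv.coe_coe, k3_conj_apply,
      LinearMap.id_apply, add_sub_cancel_left]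
  · rintro ⟨y, hy, rfl⟩
    obtain ⟨u, rfl⟩ := (mem_II U).mp hy
    refine ⟨m.symm (((ψ w')⁻¹ • u) ⊗ₜ[F] w'), ?_⟩
    rw [LinearMap.sub_apply, LinearEquiv.coe_coe, k3_conj_apply, LinearMap.id_apply,
      add_sub_cancel_left, LinearEquiv.apply_symm_apply, ev_tmul, smul_smul,
      mul_inv_cancel₀ hw', one_smul, LinearEquiv.coe_coe]

theorem conj_root_not_mem [FiniteDimensional F U] [FiniteDimensional F W]
    (hab : finrank F U < finrank F W)
    (k2 : ∀ (w₁ w₂ : W), w₁ ≠ 0 → w₂ ≠ 0 → ∀ m ∈ M,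
      (II F U w₁).map m.toLinearMap = II F U w₂ → m ∈ NT F U W)
    {m : (U ⊗[F] W) ≃ₗ[F] (U ⊗[F] W)} (hm : m ∈ M) (hmN : m ∉ NT F U W)
    {w : W} {ψ : Dual F W} (hw : w ≠ 0) (hψ : ψ ≠ 0) (h : ψ w = 0) :
    m⁻¹ * TensorProduct.congr (LinearEquiv.refl F U) (LinearEquiv.transvection h) * m
      ∉ NT F U W := by
  intro hx
  have hfr : finrank F ↥((II F U w).map m.symm.toLinearMap) = finrank F U := by
    rw [LinearEquiv.finrank_map_eq, finrank_II hw]
  have hU : Nontrivial U := by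
    by_contra hcon
    rw [not_nontrivial_iff_subsingleton] at hcon
    apply hmN
    have : m = 1 := by
      apply LinearEquiv.toLinearMap_injective
      apply TensorProduct.ext'
      intro u x
      rw [Subsingleton.elim u 0]; simp
    rw [this]; exact (NT F U W).one_mem
  have hne : m⁻¹ * TensorProduct.congr (LinearEquiv.refl F U) (LinearEquiv.transvection h) * m
      ≠ 1 := by
    intro h1
    have h2 := k3_range m hψ h
    rw [h1] at h2
    have h3 : ((1 : (U ⊗[F] W) ≃ₗ[F] (U ⊗[F] W)).toLinearMap - LinearMap.id :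
        U ⊗[F] W →ₗ[F] U ⊗[F] W) = 0 := by
      ext x; simp
    rw [h3, LinearMap.range_zero] at h2
    rw [← h2, finrank_bot] at hfr
    have : 0 < finrank F U := Module.finrank_pos
    omega
  obtain ⟨w₃, hw₃, hle⟩ := exists_II_le_range hx hne (by rw [k3_range m hψ h, hfr]; exact hab)
  rw [k3_range m hψ h] at hle
  have heq : II F U w₃ = (II F U w).map m.symm.toLinearMap :=
    Submodule.eq_of_le_of_finrank_eq hle (by rw [hfr, finrank_II hw₃])
  apply hmN
  apply k2 w₃ w hw₃ hw m hm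
  rw [heq, ← Submodule.map_comp]
  have : m.toLinearMap ∘ₗ m.symm.toLinearMap = LinearMap.id := by
    ext x; simp
  rw [this, Submodule.map_id]

end Cfsg.Agent.Lib.Helper59.TP
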