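import Cfsg.Agent.Lib.Helper59.TP.RANK
import Cfsg.Agent.Lib.Helper59.TP.K2

set_option autoImplicit false

/-! Rung PROP of the S5637 ladder: `GL(U) ⊗ GL(W)` does not contain `SL(V)`. -/

namespace Cfsg.Agent.Lib.Helper59.TP

open TensorProduct Module Cfsg.Agent.Lib.Helper95 Cfsg.Agent.Lib.Helper97

variable {F U W : Type*} [Field F] [AddCommGroup U] [Module F U] [AddCommGroup W] [Module F W]

theorem prop_exists_not_mem_span {X : Type*} [AddCommGroup X] [Module F X] [FiniteDimensional F X]
    (h : 2 ≤ finrank F X) (x : X) : ∃ y : X, y ∉ Submodule.span F {x} := by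
  by_contra hcon
  push Not at hcon
  have h1 : Submodule.span F {x} = ⊤ := by
    rw [eq_top_iff]; intro y _; exact hcon y
  have h2 : finrank F (Submodule.span F {x}) ≤ 1 := by
    have := finrank_span_le_card (R := F) ({x} : Set X)
    simpa using this
  rw [h1, finrank_top] at h2
  omega

theorem exists_not_mem_NT [FiniteDimensional F U] [FiniteDimensional F W]
    (ha : 2 ≤ finrank F U) (hab : finrank F U < finrank F W) :
    ∃ g ∈ slGrp F (U ⊗[F] W), g ∉ NT F U W := by
  have hU : Nontrivial U := Module.nontrivial_of_finrank_pos (R := F) (by omega)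
  have hWn : Nontrivial W := Module.nontrivial_of_finrank_pos (R := F) (by omega)
  obtain ⟨u, hu⟩ := exists_ne (0 : U)
  obtain ⟨w, hw⟩ := exists_ne (0 : W)
  obtain ⟨w', hw'⟩ := prop_exists_not_mem_span (F := F) (by omega : 2 ≤ finrank F W) w
  obtain ⟨ψ, hψ1, hψ0⟩ := k2_exists_dual hw'
  obtain ⟨φ, hφ⟩ := Module.Projective.exists_dual_eq_one F hu
  have h0 : (φ ∘ₗ ev U ψ) (u ⊗ₜ[F] w) = 0 := by simp [hψ0]
  have hc : u ⊗ₜ[F] w ≠ 0 := by
    intro h
    apply hu
    apply ins_injective (F := F) (U := U) hw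
    rw [ins_apply, h, map_zero]
  refine ⟨LinearEquiv.transvection h0, ?_, ?_⟩
  · show LinearEquiv.det (LinearEquiv.transvection h0) = 1
    exact LinearEquiv.transvection.det_eq_one h0
  · intro hg
    have hrange : LinearMap.range ((LinearEquiv.transvection h0).toLinearMap - LinearMap.id)
        ≤ Submodule.span F {u ⊗ₜ[F] w} := by
      rintro _ ⟨x, rfl⟩
      rw [LinearMap.sub_apply, LinearEquiv.coe_coe, LinearEquiv.transvection.apply,
        LinearMap.id_apply, add_sub_cancel_left]
      exact Submodule.smul_mem _ _ (Submodule.mem_span_singleton_self _)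
    have h1 : finrank F (Submodule.span F {u ⊗ₜ[F] w}) ≤ 1 := by
      have := finrank_span_le_card (R := F) ({u ⊗ₜ[F] w} : Set (U ⊗[F] W))
      simpa using this
    have h2 := Submodule.finrank_mono hrange
    have hne : LinearEquiv.transvection h0 ≠ 1 := by
      intro h
      have h3 := congrArg (fun e : (U ⊗[F] W) ≃ₗ[F] (U ⊗[F] W) => e (u ⊗ₜ[F] w')) h
      simp only [LinearEquiv.transvection.apply, LinearEquiv.coe_one, id_eq,
        LinearMap.comp_apply, ev_tmul, hψ1, one_smul, hφ] at h3
      exact hc (by simpa using h3)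
    obtain ⟨w₃, hw₃, hle⟩ := exists_II_le_range hg hne (by omega)
    have h3 := Submodule.finrank_mono hle
    rw [finrank_II hw₃] at h3
    omega

end Cfsg.Agent.Lib.Helper59.TP
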