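import Cfsg.Agent.Lib.Helper59.TP.ZXC
import Cfsg.Agent.Lib.Helper59.TP.BAS
import Cfsg.Agent.Lib.Helper59.TP.RK1

set_option autoImplicit false

/-! Ladder TP, rung SPR (helper98): the pure transvections generate all transvections. -/

namespace Cfsg.Agent.Lib.Helper59.TP

open TensorProduct Module Cfsg.Agent.Lib.Helper95 Cfsg.Agent.Lib.Helper97

variable {F U W : Type*} [Field F] [AddCommGroup U] [Module F U] [AddCommGroup W] [Module F W]
variable {M : Subgroup ((U ⊗[F] W) ≃ₗ[F] (U ⊗[F] W))}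

theorem spr_TX_sum {κ : Type*} (s : Finset κ) (v : U ⊗[F] W) (g : κ → Dual F (U ⊗[F] W))
    (h : ∀ k ∈ s, TX M v (g k)) : TX M v (∑ k ∈ s, g k) := by
  classical
  induction s using Finset.induction_on with
  | empty => rw [Finset.sum_empty]; exact TX_zero_right v
  | insert a s ha ih =>
    rw [Finset.sum_insert ha]
    exact (h a (Finset.mem_insert_self a s)).add_right
      (ih (fun k hk => h k (Finset.mem_insert_of_mem hk)))

theorem spr_step1 [FiniteDimensional F W]
    (h : ∀ (u : U) (φ : Dual F U) (w : W) (χ : Dual F W), χ w = 0 →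
      TX M (u ⊗ₜ[F] w) (φ ∘ₗ ev U χ))
    (u : U) (w : W) (f : Dual F (U ⊗[F] W)) (hf : f ∘ₗ ins F U w = 0) :
    TX M (u ⊗ₜ[F] w) f := by
  by_cases hw : w = 0
  · subst hw
    rw [TensorProduct.tmul_zero]
    exact TX_zero_left f
  obtain ⟨χ₀, hχ₀⟩ := Module.Projective.exists_dual_eq_one F hw
  have hf' : ∀ x : U, f (x ⊗ₜ[F] w) = 0 := fun x => LinearMap.congr_fun hf x
  set b := Module.finBasis F W with hb
  have e : f = ∑ k, (f ∘ₗ ins F U (b k)) ∘ₗ ev U (b.coord k - b.coord k w • χ₀) := by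
    apply LinearMap.ext
    intro v
    rw [LinearMap.sum_apply]
    simp only [LinearMap.comp_apply, ins_apply, ev_sub, ev_smul, LinearMap.sub_apply,
      LinearMap.smul_apply, TensorProduct.sub_tmul, map_sub]
    rw [Finset.sum_sub_distrib, ← map_sum, sum_ev_coord b v, ← map_sum]
    have h1 : ∑ k, (b.coord k w • ev U χ₀ v) ⊗ₜ[F] b k = ev U χ₀ v ⊗ₜ[F] w := by
      simp only [Basis.coord_apply]
      simp_rw [← TensorProduct.smul_tmul', ← TensorProduct.tmul_smul]
      rw [← TensorProduct.tmul_sum, b.sum_repr]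
    rw [h1, hf', sub_zero]
  rw [e]
  apply spr_TX_sum
  intro k _
  apply h
  rw [LinearMap.sub_apply, LinearMap.smul_apply, hχ₀, smul_eq_mul, mul_one, sub_self]

theorem spr_full [FiniteDimensional F U] [FiniteDimensional F W]
    (ha : 0 < finrank F U) (hab : finrank F U < finrank F W)
    (h : ∀ (u : U) (φ : Dual F U) (w : W) (χ : Dual F W), χ w = 0 →
      TX M (u ⊗ₜ[F] w) (φ ∘ₗ ev U χ))
    (u : U) (w : W) : Full M (u ⊗ₜ[F] w) := by
  intro f hf
  obtain ⟨w₂, hw₂, hfw₂⟩ := exists_ins_eq_zero hab f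
  rcases rk1_dual_or (F := F) w₂ w with ⟨χ₁, h12, h11⟩ | ⟨c, hc⟩
  · obtain ⟨u₂, hu₂⟩ := finrank_pos_iff_exists_ne_zero.mp ha
    obtain ⟨φ₁, hφ₁⟩ := Module.Projective.exists_dual_eq_one F hu₂
    have h3 := TX.comm (h u φ₁ w χ₁ h11) (spr_step1 h u₂ w₂ f hfw₂) hf
    rw [LinearMap.comp_apply, ev_tmul, h12, one_smul, hφ₁, one_smul] at h3
    exact h3
  · have hc0 : c ≠ 0 := by
      rintro rfl
      exact hw₂ (by rw [hc, zero_smul])
    apply spr_step1 h
    apply LinearMap.ext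
    intro x
    have h4 : f (x ⊗ₜ[F] w₂) = 0 := LinearMap.congr_fun hfw₂ x
    rw [hc, TensorProduct.tmul_smul, map_smul, smul_eq_mul] at h4
    rw [LinearMap.comp_apply, ins_apply, LinearMap.zero_apply]
    exact (mul_eq_zero.mp h4).resolve_left hc0

theorem transvection_mem_of_pure [FiniteDimensional F U] [FiniteDimensional F W]
    (ha : 0 < finrank F U) (hab : finrank F U < finrank F W)
    (h : ∀ (u : U) (φ : Dual F U) (w : W) (χ : Dual F W), χ w = 0 →
      TX M (u ⊗ₜ[F] w) (φ ∘ₗ ev U χ))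
    (f : Dual F (U ⊗[F] W)) (v : U ⊗[F] W) (hfv : f v = 0) : LinearEquiv.transvection hfv ∈ M := by
  apply transvection_mem_of_fullSub_eq_top
  rw [eq_top_iff, ← TensorProduct.span_tmul_eq_top, Submodule.span_le]
  rintro _ ⟨u, w, rfl⟩
  exact spr_full ha hab h u w

end Cfsg.Agent.Lib.Helper59.TP
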