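import Cfsg.Agent.Lib.Helper59.TP.ZXC
import Cfsg.Agent.Lib.Helper59.TP.BAS

set_option autoImplicit false

/-! Ladder TP, rung STA (helper98): a bad element with a non-trivial intersection. -/

namespace Cfsg.Agent.Lib.Helper59.TP

open TensorProduct Module Cfsg.Agent.Lib.Helper95 Cfsg.Agent.Lib.Helper97

variable {F U W : Type*} [Field F] [AddCommGroup U] [Module F U] [AddCommGroup W] [Module F W]
variable {M : Subgroup ((U ⊗[F] W) ≃ₗ[F] (U ⊗[F] W))}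

theorem exists_bad_inter [FiniteDimensional F U] [FiniteDimensional F W]
    (ha : 0 < finrank F U) (hab : finrank F U < finrank F W) (hW : HW M)
    (k3 : ∀ m ∈ M, m ∉ NT F U W → ∀ (w : W) (ψ : Dual F W) (h : ψ w = 0), w ≠ 0 → ψ ≠ 0 →
      m⁻¹ * TensorProduct.congr (LinearEquiv.refl F U) (LinearEquiv.transvection h) * m
        ∉ NT F U W)
    (hne : ∃ m ∈ M, m ∉ NT F U W) :
    ∃ m ∈ M, m ∉ NT F U W ∧ ∃ w₁ w₂ : W, w₁ ≠ 0 ∧ w₂ ≠ 0 ∧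
      II F U w₁ ⊓ (II F U w₂).map m.toLinearMap ≠ ⊥ := by
  obtain ⟨m₀, hm₀, hm₀N⟩ := hne
  obtain ⟨u₀, hu₀⟩ := finrank_pos_iff_exists_ne_zero.mp ha
  obtain ⟨w₂, hw₂⟩ := finrank_pos_iff_exists_ne_zero.mp (lt_trans ha hab)
  have hne0 : u₀ ⊗ₜ[F] w₂ ≠ 0 := by
    intro h0
    apply hu₀
    apply ins_injective (F := F) (U := U) hw₂
    rw [ins_apply, h0, map_zero]
  obtain ⟨ψ, hψ, hev⟩ := exists_ev_eq_zero hab (m₀ (u₀ ⊗ₜ[F] w₂))
  obtain ⟨w'', hw''0, hw''⟩ : ∃ w'' : W, w'' ≠ 0 ∧ ψ w'' = 0 := by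
    have h1 := LinearMap.finrank_range_add_finrank_ker ψ
    have h2 : finrank F (LinearMap.range ψ) ≤ 1 := by
      have := Submodule.finrank_le (LinearMap.range ψ)
      rwa [finrank_self] at this
    have h3 : 0 < finrank F (LinearMap.ker ψ) := by omega
    obtain ⟨⟨x, hx⟩, hx0⟩ := finrank_pos_iff_exists_ne_zero.mp h3
    exact ⟨x, fun e => hx0 (Subtype.ext e), hx⟩
  refine ⟨m₀⁻¹ * TensorProduct.congr (LinearEquiv.refl F U) (LinearEquiv.transvection hw'') * m₀,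
    M.mul_mem (M.mul_mem (M.inv_mem hm₀) (hW ψ w'' hw'')) hm₀,
    k3 m₀ hm₀ hm₀N w'' ψ hw'' hw''0 hψ, w₂, w₂, hw₂, hw₂, ?_⟩
  have hfix : (m₀⁻¹ * TensorProduct.congr (LinearEquiv.refl F U) (LinearEquiv.transvection hw'')
      * m₀) (u₀ ⊗ₜ[F] w₂) = u₀ ⊗ₜ[F] w₂ := by
    rw [LinearEquiv.mul_apply, LinearEquiv.mul_apply, root_apply, hev, TensorProduct.zero_tmul,
      add_zero]
    exact m₀.symm_apply_apply _
  intro hbot
  apply hne0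
  rw [← Submodule.mem_bot F, ← hbot]
  refine ⟨tmul_mem_II U w₂ u₀, ?_⟩
  exact ⟨u₀ ⊗ₜ[F] w₂, tmul_mem_II U w₂ u₀, hfix⟩

end Cfsg.Agent.Lib.Helper59.TP
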