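import Cfsg.Agent.Lib.Helper59.TP.Defs
import Cfsg.Agent.Lib.Helper59.TP.ZXC
import Cfsg.Agent.Lib.Helper59.TP.BAS
import Cfsg.Agent.Lib.Helper59.TP.COUNT

set_option autoImplicit false
set_option linter.style.haveILetI false

/-! Ladder "TP", rung STB (helper41): a maximal intersection `U ⊗ w₁ ∩ m (U ⊗ w₂)` gives a partial
spread which is too large. -/

namespace Cfsg.Agent.Lib.Helper59.TP

open TensorProduct Module Cfsg.Agent.Lib.Helper95 Cfsg.Agent.Lib.Helper97

variable {F U W : Type*} [Field F] [AddCommGroup U] [Module F U] [AddCommGroup W] [Module F W]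
variable {M : Subgroup ((U ⊗[F] W) ≃ₗ[F] (U ⊗[F] W))}

/-- the root element `1 ⊗ (1 + w ψ)` -/
noncomputable def stbX {w : W} (ψ : Dual F W) (h : ψ w = 0) : (U ⊗[F] W) ≃ₗ[F] (U ⊗[F] W) :=
  TensorProduct.congr (LinearEquiv.refl F U) (LinearEquiv.transvection h)

theorem stbX_apply {w : W} (ψ : Dual F W) (h : ψ w = 0) (v : U ⊗[F] W) :
    stbX ψ h v = v + ev U ψ v ⊗ₜ[F] w := root_apply h v

theorem stbX_fix {w : W} (ψ : Dual F W) (h : ψ w = 0) {v : U ⊗[F] W} (hv : v ∈ II F U w) :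
    stbX ψ h v = v := by
  obtain ⟨u, rfl⟩ := hv
  rw [stbX_apply, ins_apply, ev_tmul, h, zero_smul, TensorProduct.zero_tmul, add_zero]

theorem stbX_sub_mem {w : W} (ψ : Dual F W) (h : ψ w = 0) (v : U ⊗[F] W) :
    stbX ψ h v - v ∈ II F U w := by
  rw [stbX_apply, add_sub_cancel_left]
  exact tmul_mem_II U w _

theorem stbX_comp {w : W} (ψ ψ' : Dual F W) (h : ψ w = 0) (h' : ψ' w = 0)
    (h'' : (ψ' - ψ) w = 0) (v : U ⊗[F] W) : stbX ψ' h' v = stbX ψ h (stbX (ψ' - ψ) h'' v) := by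
  have h1 : stbX (ψ' - ψ) h'' v = v + ev U (ψ' - ψ) v ⊗ₜ[F] w := stbX_apply _ _ _
  rw [h1, map_add, stbX_fix ψ h (tmul_mem_II U w _), stbX_apply, stbX_apply, ev_sub,
    LinearMap.sub_apply, TensorProduct.sub_tmul]
  abel

theorem false_of_max [Fintype F] [FiniteDimensional F U] [FiniteDimensional F W]
    (ha : 0 < finrank F U) (hab : finrank F U < finrank F W) (hW : HW M)
    (k2 : ∀ (w₁ w₂ : W), w₁ ≠ 0 → w₂ ≠ 0 → ∀ m ∈ M,
      (II F U w₁).map m.toLinearMap = II F U w₂ → m ∈ NT F U W)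
    (k3 : ∀ m ∈ M, m ∉ NT F U W → ∀ (w : W) (ψ : Dual F W) (h : ψ w = 0), w ≠ 0 → ψ ≠ 0 →
      m⁻¹ * TensorProduct.congr (LinearEquiv.refl F U) (LinearEquiv.transvection h) * m
        ∉ NT F U W)
    {m : (U ⊗[F] W) ≃ₗ[F] (U ⊗[F] W)} (hm : m ∈ M) (hmN : m ∉ NT F U W) {w₁ w₂ : W}
    (h1 : w₁ ≠ 0) (h2 : w₂ ≠ 0) (hne : II F U w₁ ⊓ (II F U w₂).map m.toLinearMap ≠ ⊥)
    (hmax : ∀ m' ∈ M, m' ∉ NT F U W → ∀ w₁' w₂' : W, w₁' ≠ 0 → w₂' ≠ 0 →
      finrank F ↥(II F U w₁' ⊓ (II F U w₂').map m'.toLinearMap) ≤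
        finrank F ↥(II F U w₁ ⊓ (II F U w₂).map m.toLinearMap)) : False := by
  classical
  set I : Submodule F (U ⊗[F] W) := II F U w₁ with hIdef
  set J : Submodule F (U ⊗[F] W) := (II F U w₂).map m.toLinearMap with hJdef
  set D : Submodule F (U ⊗[F] W) := I ⊓ J with hDdef
  have hI : finrank F I = finrank F U := finrank_II h1
  have hJ : finrank F J = finrank F U := by
    rw [hJdef, LinearEquiv.finrank_map_eq]
    exact finrank_II h2
  have hd1 : 1 ≤ finrank F D := Submodule.one_le_finrank_iff.2 hne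
  have hda : finrank F D < finrank F U := by
    have hle : finrank F D ≤ finrank F U := by
      rw [← hI]
      exact Submodule.finrank_mono inf_le_left
    rcases Nat.lt_or_ge (finrank F D) (finrank F U) with h | h
    · exact h
    · exfalso
      have e1 : D = I := Submodule.eq_of_le_of_finrank_le inf_le_left (by rw [hI]; exact h)
      have e2 : D = J := Submodule.eq_of_le_of_finrank_le inf_le_right (by rw [hJ]; exact h)
      exact hmN (k2 w₂ w₁ h2 h1 m hm (e2.symm.trans e1))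
  -- elements of `D` are fixed
  have hDfix : ∀ (ψ : Dual F W) (h : ψ w₁ = 0), ∀ v ∈ D, stbX (U := U) ψ h v = v :=
    fun ψ h v hv => stbX_fix ψ h hv.1
  have hDle : ∀ (ψ : Dual F W) (h : ψ w₁ = 0), D ≤ J.map (stbX (U := U) ψ h).toLinearMap := by
    intro ψ h v hv
    exact ⟨v, hv.2, hDfix ψ h v hv⟩
  -- the key equality
  have hE : ∀ (ψ : Dual F W) (h : ψ w₁ = 0), ψ ≠ 0 →
      J ⊓ J.map (stbX (U := U) ψ h).toLinearMap = D := by
    intro ψ h hψ
    symm
    apply Submodule.eq_of_le_of_finrank_le (le_inf inf_le_right (hDle ψ h))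
    have hm'N := k3 m hm hmN w₁ ψ h h1 hψ
    have hm'M : m⁻¹ * TensorProduct.congr (LinearEquiv.refl F U) (LinearEquiv.transvection h) * m
        ∈ M := M.mul_mem (M.mul_mem (M.inv_mem hm) (hW ψ w₁ h)) hm
    have h3 := hmax _ hm'M hm'N w₂ w₂ h2 h2
    have h4 : J ⊓ J.map (stbX (U := U) ψ h).toLinearMap
        = (II F U w₂ ⊓ (II F U w₂).map (m⁻¹ * TensorProduct.congr (LinearEquiv.refl F U)
            (LinearEquiv.transvection h) * m).toLinearMap).map m.toLinearMap := by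
      rw [Submodule.map_inf _ m.injective, ← Submodule.map_comp, hJdef, ← Submodule.map_comp]
      congr 2
      ext u w
      simp only [TensorProduct.AlgebraTensorModule.curry_apply, LinearMap.restrictScalars_self,
        TensorProduct.curry_apply, LinearMap.comp_apply, LinearEquiv.coe_coe,
        LinearEquiv.mul_apply]
      have : m (m⁻¹ ((TensorProduct.congr (LinearEquiv.refl F U) (LinearEquiv.transvection h))
          (m (u ⊗ₜ[F] w)))) = (TensorProduct.congr (LinearEquiv.refl F U)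
          (LinearEquiv.transvection h)) (m (u ⊗ₜ[F] w)) := by
        rw [← LinearEquiv.mul_apply, mul_inv_cancel]
        rfl
      rw [this]
      rfl
    rw [h4, LinearEquiv.finrank_map_eq]
    exact h3
  haveI : Finite (Dual F W) := Module.finite_of_finite F
  letI : Fintype {ψ : Dual F W // ψ w₁ = 0} := Fintype.ofFinite _
  have hcount := card_le_of_partial_spread D I (I ⊔ J)
    (fun ψ : {ψ : Dual F W // ψ w₁ = 0} => J.map (stbX (U := U) ψ.1 ψ.2).toLinearMap)
    (finrank F U) (finrank F D) hda rfl hI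
    (fun ψ => by rw [LinearEquiv.finrank_map_eq]; exact hJ)
    (by
      have := Submodule.finrank_sup_add_finrank_inf_eq I J
      rw [hI, hJ] at this
      rw [hDdef]
      omega)
    le_sup_left
    (by
      rintro ψ _ ⟨j, hj, rfl⟩
      have h3 : stbX (U := U) ψ.1 ψ.2 j = (stbX (U := U) ψ.1 ψ.2 j - j) + j := by abel
      change stbX (U := U) ψ.1 ψ.2 j ∈ I ⊔ J
      rw [h3]
      exact Submodule.add_mem _ (Submodule.mem_sup_left (stbX_sub_mem ψ.1 ψ.2 j))
        (Submodule.mem_sup_right hj))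
    (by
      intro ψ
      apply le_antisymm
      · rintro v ⟨hvI, j, hj, rfl⟩
        have hjI : j ∈ I := by
          have h3 : j = stbX (U := U) ψ.1 ψ.2 j - (stbX (U := U) ψ.1 ψ.2 j - j) := by abel
          rw [h3]
          exact I.sub_mem hvI (stbX_sub_mem ψ.1 ψ.2 j)
        change stbX (U := U) ψ.1 ψ.2 j ∈ D
        rw [stbX_fix ψ.1 ψ.2 hjI]
        exact ⟨hjI, hj⟩
      · exact le_inf inf_le_left (hDle ψ.1 ψ.2))
    (by
      intro ψ ψ' hψψ'
      apply le_antisymm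
      · rintro v ⟨⟨j, hj, rfl⟩, j', hj', hjj'⟩
        have h'' : (ψ'.1 - ψ.1) w₁ = 0 := by rw [LinearMap.sub_apply, ψ'.2, ψ.2, sub_zero]
        have hne' : ψ'.1 - ψ.1 ≠ 0 := fun h => hψψ' (Subtype.ext (sub_eq_zero.1 h).symm)
        have h3 : stbX (U := U) ψ'.1 ψ'.2 j' = stbX (U := U) ψ.1 ψ.2 j := hjj'
        rw [stbX_comp ψ.1 ψ'.1 ψ.2 ψ'.2 h''] at h3
        have h4 := (stbX (U := U) ψ.1 ψ.2).injective h3
        have h5 : j ∈ J ⊓ J.map (stbX (U := U) (ψ'.1 - ψ.1) h'').toLinearMap :=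
          ⟨hj, j', hj', h4⟩
        rw [hE _ h'' hne'] at h5
        change stbX (U := U) ψ.1 ψ.2 j ∈ D
        rw [hDfix ψ.1 ψ.2 j h5]
        exact h5
      · exact le_inf (hDle ψ.1 ψ.2) (hDle ψ'.1 ψ'.2))
  rw [card_annihilator h1, Nat.pow_le_pow_iff_right Fintype.one_lt_card] at hcount
  omega

end Cfsg.Agent.Lib.Helper59.TP
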