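import Cfsg.Agent.Lib.Helper59.TP.Defs
import Cfsg.Agent.Lib.Helper95.Glue

set_option autoImplicit false

/-! Rung T1 of the S5637 ladder: Kronecker products and `TensorProduct.congr`. -/

namespace Cfsg.Agent.Lib.Helper59.TP

open TensorProduct Module Cfsg.Agent.Lib.Helper95 Cfsg.Agent.Lib.Helper97
open scoped Kronecker

variable {F : Type*} [Field F]

/-- the standard basis of `F^{n₁} ⊗ F^{n₂}`. -/
noncomputable def t1B (F : Type*) [Field F] (n₁ n₂ : ℕ) :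
    Basis (Fin n₁ × Fin n₂) F ((Fin n₁ → F) ⊗[F] (Fin n₂ → F)) :=
  (Pi.basisFun F (Fin n₁)).tensorProduct (Pi.basisFun F (Fin n₂))

theorem t1_conj (n₁ n₂ : ℕ) (g : Matrix.GeneralLinearGroup (Fin n₁ × Fin n₂) F) :
    ((t1B F n₁ n₂).equivFun.symm.symm.trans ((glEquiv g).trans
      (t1B F n₁ n₂).equivFun.symm)).toLinearMap
      = Matrix.toLin (t1B F n₁ n₂) (t1B F n₁ n₂)
        (g : Matrix (Fin n₁ × Fin n₂) (Fin n₁ × Fin n₂) F) := by
  ext v
  simp only [LinearEquiv.coe_coe, LinearEquiv.trans_apply, LinearEquiv.symm_symm, glEquiv_apply,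
    Matrix.toLin_apply, Basis.equivFun_symm_apply]
  rfl

theorem t1_kron (n₁ n₂ : ℕ) (a : Matrix.GeneralLinearGroup (Fin n₁) F)
    (b : Matrix.GeneralLinearGroup (Fin n₂) F) :
    Matrix.toLin (t1B F n₁ n₂) (t1B F n₁ n₂)
      ((a : Matrix (Fin n₁) (Fin n₁) F) ⊗ₖ (b : Matrix (Fin n₂) (Fin n₂) F))
      = (TensorProduct.congr (glEquiv a) (glEquiv b)).toLinearMap := by
  unfold t1B
  rw [Matrix.toLin_kronecker]
  apply TensorProduct.ext'
  intro x y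
  simp [Matrix.toLin_eq_toLin']

theorem exists_kron_equiv {F : Type*} [Field F] (n₁ n₂ : ℕ) :
    ∃ L : (Fin n₁ × Fin n₂ → F) ≃ₗ[F] ((Fin n₁ → F) ⊗[F] (Fin n₂ → F)),
      ∀ g : Matrix.GeneralLinearGroup (Fin n₁ × Fin n₂) F,
        g ∈ Cfsg.Geo.kroneckerSubgroup n₁ n₂ F ↔
          L.symm.trans ((glEquiv g).trans L) ∈ NT F (Fin n₁ → F) (Fin n₂ → F) := by
  refine ⟨(t1B F n₁ n₂).equivFun.symm, fun g => ⟨?_, ?_⟩⟩
  · rintro ⟨a, b, hg⟩
    refine ⟨glEquiv a, glEquiv b, ?_⟩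
    apply LinearEquiv.toLinearMap_injective
    rw [t1_conj, hg, t1_kron]
  · rintro ⟨t, s, hts⟩
    refine ⟨glEquiv.symm t, glEquiv.symm s, ?_⟩
    have h1 := congrArg LinearEquiv.toLinearMap hts
    rw [t1_conj] at h1
    have h2 := t1_kron n₁ n₂ (glEquiv.symm t) (glEquiv.symm s)
    rw [MulEquiv.apply_symm_apply, MulEquiv.apply_symm_apply, ← h1] at h2
    exact ((Matrix.toLin (t1B F n₁ n₂) (t1B F n₁ n₂)).injective h2).symm

end Cfsg.Agent.Lib.Helper59.TP
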