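import Cfsg.Agent.Lib.Helper59.TP.Defs
import Cfsg.Agent.Lib.Helper95.Glue

set_option autoImplicit false

/-! Ladder "TP", rung T2 (helper41): reindexing and conjugation. -/

namespace Cfsg.Agent.Lib.Helper59.TP

open TensorProduct Module Cfsg.Agent.Lib.Helper95 Cfsg.Agent.Lib.Helper97

theorem t2_reindex {F : Type*} [Field F] {n n₁ n₂ : ℕ} (e : Fin n ≃ Fin n₁ × Fin n₂)
    (k : Matrix.GeneralLinearGroup (Fin n₁ × Fin n₂) F) (x : Fin n → F) :
    glEquiv (Cfsg.Geo.glReindex e.symm k) x = (glEquiv k (x ∘ e.symm)) ∘ e := by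
  rw [glEquiv_apply, glEquiv_apply]
  have : ((Cfsg.Geo.glReindex e.symm k : Matrix.GeneralLinearGroup (Fin n) F) :
      Matrix (Fin n) (Fin n) F) = (k : Matrix _ _ F).submatrix e e := rfl
  rw [this, Matrix.submatrix_mulVec_equiv]

theorem exists_tp_equiv {F : Type*} [Field F] (n n₁ n₂ : ℕ) (e : Fin n ≃ Fin n₁ × Fin n₂)
    (P : Matrix.GeneralLinearGroup (Fin n) F)
    {V : Type*} [AddCommGroup V] [Module F V] (N : Subgroup (V ≃ₗ[F] V))
    (L₀ : (Fin n₁ × Fin n₂ → F) ≃ₗ[F] V)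
    (h₀ : ∀ g : Matrix.GeneralLinearGroup (Fin n₁ × Fin n₂) F,
        g ∈ Cfsg.Geo.kroneckerSubgroup n₁ n₂ F ↔ L₀.symm.trans ((glEquiv g).trans L₀) ∈ N) :
    ∃ L : (Fin n → F) ≃ₗ[F] V, ∀ g : Matrix.GeneralLinearGroup (Fin n) F,
      g ∈ Cfsg.Geo.tensorProductSubgroup n₁ n₂ e P ↔ L.symm.trans ((glEquiv g).trans L) ∈ N := by
  refine ⟨(glEquiv P⁻¹).trans ((LinearEquiv.funCongrLeft F F e.symm).trans L₀), fun g => ?_⟩
  set L : (Fin n → F) ≃ₗ[F] V :=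
    (glEquiv P⁻¹).trans ((LinearEquiv.funCongrLeft F F e.symm).trans L₀) with hL
  have hLx : ∀ x, L x = L₀ ((glEquiv P⁻¹ x) ∘ e.symm) := fun x => rfl
  obtain ⟨k, hk⟩ : ∃ k, Cfsg.Geo.glReindex e.symm k = P⁻¹ * g * P :=
    ⟨(Cfsg.Geo.glReindex e.symm).symm (P⁻¹ * g * P), MulEquiv.apply_symm_apply _ _⟩
  have h1 : g ∈ Cfsg.Geo.tensorProductSubgroup n₁ n₂ e P ↔
      k ∈ Cfsg.Geo.kroneckerSubgroup n₁ n₂ F := by
    constructor
    · rintro ⟨_, ⟨k', hk', rfl⟩, hg⟩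
      have h2 : P * Cfsg.Geo.glReindex e.symm k' * P⁻¹ = g := hg
      have h3 : Cfsg.Geo.glReindex e.symm k' = Cfsg.Geo.glReindex e.symm k := by
        rw [hk, ← h2]
        group
      rw [← (Cfsg.Geo.glReindex e.symm).injective h3]
      exact hk'
    · intro hk'
      refine ⟨Cfsg.Geo.glReindex e.symm k, ⟨k, hk', rfl⟩, ?_⟩
      change P * Cfsg.Geo.glReindex e.symm k * P⁻¹ = g
      rw [hk]
      group
  rw [h1, h₀ k]
  have h2 : L.symm.trans ((glEquiv g).trans L) = L₀.symm.trans ((glEquiv k).trans L₀) := by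
    ext v
    obtain ⟨x, rfl⟩ := L.surjective v
    simp only [LinearEquiv.trans_apply, LinearEquiv.symm_apply_apply]
    rw [hLx, hLx, LinearEquiv.symm_apply_apply]
    congr 1
    have h3 : glEquiv P⁻¹ (glEquiv g x) = glEquiv (Cfsg.Geo.glReindex e.symm k) (glEquiv P⁻¹ x) := by
      rw [← LinearEquiv.mul_apply, ← LinearEquiv.mul_apply, ← map_mul, ← map_mul, hk]
      congr 2
      group
    rw [h3, t2_reindex]
    ext i
    simp
  rw [h2]

end Cfsg.Agent.Lib.Helper59.TP
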