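import Cfsg.Agent.Lib.Helper59.TP.Defs
import Cfsg.Agent.Lib.Helper95.Glue

set_option autoImplicit false

/-! Ladder "TP", rung T3 (helper41): generic transport of maximality from `V ≃ₗ V` to matrices. -/

namespace Cfsg.Agent.Lib.Helper59.TP

open TensorProduct Module Cfsg.Agent.Lib.Helper95 Cfsg.Agent.Lib.Helper97

/-- `g ↦ L ∘ g ∘ L⁻¹` -/
noncomputable def t3Θ {F : Type*} [Field F] {n : ℕ} {V : Type*} [AddCommGroup V] [Module F V]
    (L : (Fin n → F) ≃ₗ[F] V) : Matrix.GeneralLinearGroup (Fin n) F →* (V ≃ₗ[F] V) where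
  toFun g := L.symm.trans ((glEquiv g).trans L)
  map_one' := by
    ext v
    simp
  map_mul' g h := by
    ext v
    simp [LinearEquiv.mul_apply]

theorem t3Θ_apply {F : Type*} [Field F] {n : ℕ} {V : Type*} [AddCommGroup V] [Module F V]
    (L : (Fin n → F) ≃ₗ[F] V) (g : Matrix.GeneralLinearGroup (Fin n) F) :
    t3Θ L g = L.symm.trans ((glEquiv g).trans L) := rfl

theorem t3Θ_surj {F : Type*} [Field F] {n : ℕ} {V : Type*} [AddCommGroup V] [Module F V]
    (L : (Fin n → F) ≃ₗ[F] V) (e : V ≃ₗ[F] V) :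
    t3Θ L (glEquiv.symm (L.trans (e.trans L.symm))) = e := by
  rw [t3Θ_apply, MulEquiv.apply_symm_apply]
  ext v
  simp

theorem t3Θ_sl {F : Type*} [Field F] {n : ℕ} {V : Type*} [AddCommGroup V] [Module F V]
    (L : (Fin n → F) ≃ₗ[F] V) (g : Matrix.GeneralLinearGroup (Fin n) F) :
    g ∈ Cfsg.Geo.specialLinear (Fin n) F ↔ t3Θ L g ∈ slGrp F V := by
  rw [mem_specialLinear_iff']
  change LinearEquiv.det (glEquiv g) = 1 ↔ LinearEquiv.det (t3Θ L g) = 1
  have : t3Θ L g = (L.symm.trans (glEquiv g)).trans L := rfl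
  rw [this, LinearEquiv.det_conj]

theorem maximal_of_equiv {F : Type*} [Field F] {n : ℕ} (hn : 2 ≤ n)
    {V : Type*} [AddCommGroup V] [Module F V] (L : (Fin n → F) ≃ₗ[F] V)
    (S : Subgroup (Matrix.GeneralLinearGroup (Fin n) F)) (N : Subgroup (V ≃ₗ[F] V))
    (hS : ∀ g, g ∈ S ↔ L.symm.trans ((glEquiv g).trans L) ∈ N)
    (hprop : ∃ g ∈ slGrp F V, g ∉ N)
    (core : ∀ M : Subgroup (V ≃ₗ[F] V), N ⊓ slGrp F V ≤ M → M ≤ slGrp F V → (∃ g ∈ M, g ∉ N) →
      ∀ (f : Dual F V) (v : V) (hfv : f v = 0), LinearEquiv.transvection hfv ∈ M) :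
    Cfsg.Geo.IsMaximalIn (Cfsg.Geo.specialLinear (Fin n) F)
      (S ⊓ Cfsg.Geo.specialLinear (Fin n) F) := by
  have : Nontrivial (Fin n) := Fin.nontrivial_iff_two_le.2 hn
  have hS' : ∀ g, g ∈ S ↔ t3Θ L g ∈ N := hS
  apply isMaximalIn_of inf_le_right
  · obtain ⟨e, he, heN⟩ := hprop
    refine ⟨glEquiv.symm (L.trans (e.trans L.symm)), ?_, ?_⟩
    · rw [t3Θ_sl L, t3Θ_surj]
      exact he
    · intro h
      have := (hS' _).1 h.1
      rw [t3Θ_surj] at this
      exact heN this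
  · intro X hX1 hX2 g hgX hgS
    have htr := core (X.map (t3Θ L)) (by
        intro e he
        refine ⟨glEquiv.symm (L.trans (e.trans L.symm)), hX1 (Subgroup.mem_inf.2 ⟨?_, ?_⟩),
          t3Θ_surj L e⟩
        · rw [hS', t3Θ_surj]
          exact he.1
        · rw [t3Θ_sl L, t3Θ_surj]
          exact he.2) (by
        rintro _ ⟨x, hx, rfl⟩
        exact (t3Θ_sl L x).1 (hX2 hx))
      ⟨t3Θ L g, Subgroup.mem_map_of_mem _ hgX, fun h => hgS ⟨(hS' g).2 h, hX2 hgX⟩⟩
    have hle : slGrp F (Fin n → F) ≤ toLinGrp X := by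
      apply slGrp_le_of_transvections
      intro f v hfv
      have h' : (f ∘ₗ L.symm.toLinearMap) (L v) = 0 := by simpa using hfv
      obtain ⟨x, hx, hxe⟩ := htr (f ∘ₗ L.symm.toLinearMap) (L v) h'
      have hxg : glEquiv x = LinearEquiv.transvection hfv := by
        ext1 y
        apply L.injective
        have h1 : t3Θ L x (L y) = LinearEquiv.transvection h' (L y) := by rw [hxe]
        rw [t3Θ_apply] at h1
        simp only [LinearEquiv.trans_apply, LinearEquiv.symm_apply_apply,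
          LinearEquiv.transvection.apply, LinearMap.comp_apply, LinearEquiv.coe_coe] at h1
        rw [h1, LinearEquiv.transvection.apply, map_add, map_smul]
      rw [← hxg, glEquiv_mem_toLinGrp]
      exact hx
    intro y hy
    exact glEquiv_mem_toLinGrp.1 (hle ((mem_specialLinear_iff' y).1 hy))

end Cfsg.Agent.Lib.Helper59.TP
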