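import Cfsg.Agent.Lib.Helper59.TP.ZXC
import Cfsg.Agent.Lib.Helper59.TP.BAS
import Cfsg.Agent.Lib.Helper59.TP.E1
import Cfsg.Agent.Lib.Helper59.TP.FLAG
import Cfsg.Agent.Lib.Helper59.TP.ALG
import Cfsg.Agent.Lib.Helper59.TP.ENDU
import Cfsg.Agent.Lib.Helper59.TP.RK1
import Cfsg.Agent.Lib.Helper59.TP.SPR
import Cfsg.Agent.Lib.Helper59.TP.DET
import Cfsg.Agent.Lib.Helper59.TP.K1C
import Cfsg.Agent.Lib.Helper59.TP.K2
import Cfsg.Agent.Lib.Helper59.TP.K3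
import Cfsg.Agent.Lib.Helper59.TP.STA
import Cfsg.Agent.Lib.Helper59.TP.STB
import Cfsg.Agent.Lib.Helper59.TP.PROP
import Cfsg.Agent.Lib.Helper59.TP.T1
import Cfsg.Agent.Lib.Helper59.TP.T2
import Cfsg.Agent.Lib.Helper59.TP.T3

set_option autoImplicit false

/-! Assembly of the S5637 ladder "TP". -/

namespace Cfsg.Agent.Lib.Helper59.TP

open TensorProduct Module Cfsg.Agent.Lib.Helper95 Cfsg.Agent.Lib.Helper97

variable {F U W : Type*} [Field F] [AddCommGroup U] [Module F U] [AddCommGroup W] [Module F W]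
variable {M : Subgroup ((U ⊗[F] W) ≃ₗ[F] (U ⊗[F] W))}

/-- Case 1: a non-standard element gives all transvections. -/
theorem case1 [Fintype F] [FiniteDimensional F U] [FiniteDimensional F W]
    (ha : 2 ≤ finrank F U) (hab : finrank F U < finrank F W)
    (hex : ¬ (finrank F U = 2 ∧ Fintype.card F = 2)) (hU : HU M) (hW : HW M) (hstd : ¬ Std M)
    (f : Dual F (U ⊗[F] W)) (v : U ⊗[F] W) (hfv : f v = 0) : LinearEquiv.transvection hfv ∈ M := by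
  have hb : 3 ≤ finrank F W := by omega
  unfold Std at hstd
  push Not at hstd
  obtain ⟨w, Λ, hw, hZ, hΛ⟩ := hstd
  obtain ⟨A, χ, hA, hχ, hχw, hZA⟩ := exists_nonscalar_of_not_std hb hW hw hZ hΛ
  have hAS : A ∈ SS M := mem_SS_of_flag hb hW hw hχ hχw hZA
  have hadd : ∀ A ∈ SS M, ∀ B ∈ SS M, A + B ∈ SS M := fun A hA B hB => SS_add hA hB
  have hneg : ∀ A ∈ SS M, -A ∈ SS M := fun A hA => SS_neg hA
  have hsmul : ∀ (c : F), ∀ A ∈ SS M, c • A ∈ SS M := fun c A hA => SS_smul c hA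
  have hconj : ∀ A ∈ SS M, ∀ (φ : Dual F U) (u : U) (h : φ u = 0),
      (LinearEquiv.transvection h).toLinearMap ∘ₗ A ∘ₗ
        (LinearEquiv.transvection h).symm.toLinearMap ∈ SS M :=
    fun A hA φ u h => SS_conj hU hA φ u h
  have hmul : ∀ A ∈ SS M, ∀ B ∈ SS M, A ∘ₗ B ∈ SS M := fun A hA B hB => SS_mul hb hA hB
  obtain ⟨u₀, φ₀, hu₀, hφ₀, h0, hrk⟩ :=
    exists_rk1_of_nonscalar ha hex (SS M) hadd hneg hsmul hconj A hAS hA
  have hall := all_rk1 ha (SS M) hadd hneg hsmul hconj hmul u₀ φ₀ hu₀ hφ₀ h0 hrk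
  refine transvection_mem_of_pure (by omega) hab ?_ f v hfv
  intro u φ w χ hχw
  have h1 := hall u φ w χ hχw
  have h2 : φ.smulRight u ∘ₗ ev U χ = (φ ∘ₗ ev U χ).smulRight u := by
    ext x; simp
  rw [h2] at h1
  exact h1.toTX

/-- Case 2: if all elements are standard then `M ≤ GL(U) ⊗ GL(W)`. -/
theorem case2 [Fintype F] [FiniteDimensional F U] [FiniteDimensional F W]
    (ha : 2 ≤ finrank F U) (hab : finrank F U < finrank F W)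
    (hM : NT F U W ⊓ slGrp F (U ⊗[F] W) ≤ M) (hMs : M ≤ slGrp F (U ⊗[F] W)) (hstd : Std M)
    (hne : ∃ g ∈ M, g ∉ NT F U W) : False := by
  have ha0 : 0 < finrank F U := by omega
  have hW : HW M := HW_of_le hM
  have k1 : ∀ (w : W), w ≠ 0 → ∀ y ∈ M, (II F U w).map y.toLinearMap = II F U w →
      y ∈ NT F U W := fun w hw y hy hyw => stab_le_NT ha0 hM hMs hstd hw hy hyw
  have k2 : ∀ (w₁ w₂ : W), w₁ ≠ 0 → w₂ ≠ 0 → ∀ m ∈ M,
      (II F U w₁).map m.toLinearMap = II F U w₂ → m ∈ NT F U W :=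
    fun w₁ w₂ h1 h2 m hm h => mem_NT_of_map_II hW k1 h1 h2 hm h
  have k3 : ∀ m ∈ M, m ∉ NT F U W → ∀ (w : W) (ψ : Dual F W) (h : ψ w = 0), w ≠ 0 → ψ ≠ 0 →
      m⁻¹ * TensorProduct.congr (LinearEquiv.refl F U) (LinearEquiv.transvection h) * m
        ∉ NT F U W := fun m hm hmN w ψ h hw hψ => conj_root_not_mem hab k2 hm hmN hw hψ h
  obtain ⟨m₀, hm₀, hm₀N, w₁, w₂, hw₁, hw₂, hne₀⟩ := exists_bad_inter ha0 hab hW k3 hne
  -- choose a triple with maximal intersection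
  let p : ℕ → Prop := fun d => ∃ m ∈ M, m ∉ NT F U W ∧ ∃ w₁ w₂ : W, w₁ ≠ 0 ∧ w₂ ≠ 0 ∧
    II F U w₁ ⊓ (II F U w₂).map m.toLinearMap ≠ ⊥ ∧
    finrank F ↥(II F U w₁ ⊓ (II F U w₂).map m.toLinearMap) = d
  have hp0 : ∃ d, p d := ⟨_, m₀, hm₀, hm₀N, w₁, w₂, hw₁, hw₂, hne₀, rfl⟩
  have hbd : ∀ d, p d → d ≤ finrank F (U ⊗[F] W) := by
    rintro d ⟨m, _, _, w₁, w₂, _, _, _, rfl⟩
    exact Submodule.finrank_le _
  classical
  obtain ⟨d₀, hd₀⟩ := hp0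
  have hg := Nat.findGreatest_spec (P := p) (hbd d₀ hd₀) hd₀
  obtain ⟨m, hm, hmN, v₁, v₂, hv₁, hv₂, hne', hfr⟩ := hg
  refine false_of_max ha0 hab hW k2 k3 hm hmN hv₁ hv₂ hne' ?_
  intro m' hm' hm'N w₁' w₂' h1' h2'
  rw [hfr]
  by_cases hbot : II F U w₁' ⊓ (II F U w₂').map m'.toLinearMap = ⊥
  · rw [hbot]; simp
  · exact Nat.le_findGreatest (hbd _ ⟨m', hm', hm'N, w₁', w₂', h1', h2', hbot, rfl⟩)
      ⟨m', hm', hm'N, w₁', w₂', h1', h2', hbot, rfl⟩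

theorem core [Fintype F] [FiniteDimensional F U] [FiniteDimensional F W]
    (ha : 2 ≤ finrank F U) (hab : finrank F U < finrank F W)
    (hex : ¬ (finrank F U = 2 ∧ Fintype.card F = 2))
    (hM : NT F U W ⊓ slGrp F (U ⊗[F] W) ≤ M) (hMs : M ≤ slGrp F (U ⊗[F] W))
    (hne : ∃ g ∈ M, g ∉ NT F U W)
    (f : Dual F (U ⊗[F] W)) (v : U ⊗[F] W) (hfv : f v = 0) : LinearEquiv.transvection hfv ∈ M := by
  by_cases hstd : Std M
  · exact (case2 ha hab hM hMs hstd hne).elim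
  · exact case1 ha hab hex (HU_of_le hM) (HW_of_le hM) hstd f v hfv

theorem maximal_of_abstract {F : Type*} [Field F] [Fintype F] (n n₁ n₂ : ℕ) (hn : 2 ≤ n)
    (e : Fin n ≃ Fin n₁ × Fin n₂) (P : Matrix.GeneralLinearGroup (Fin n) F)
    (hprop : ∃ g ∈ slGrp F ((Fin n₁ → F) ⊗[F] (Fin n₂ → F)), g ∉ NT F (Fin n₁ → F) (Fin n₂ → F))
    (core : ∀ M : Subgroup (((Fin n₁ → F) ⊗[F] (Fin n₂ → F)) ≃ₗ[F] ((Fin n₁ → F) ⊗[F] (Fin n₂ → F))),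
      NT F (Fin n₁ → F) (Fin n₂ → F) ⊓ slGrp F ((Fin n₁ → F) ⊗[F] (Fin n₂ → F)) ≤ M →
      M ≤ slGrp F ((Fin n₁ → F) ⊗[F] (Fin n₂ → F)) →
      (∃ g ∈ M, g ∉ NT F (Fin n₁ → F) (Fin n₂ → F)) →
      ∀ (f : Dual F ((Fin n₁ → F) ⊗[F] (Fin n₂ → F))) (v : (Fin n₁ → F) ⊗[F] (Fin n₂ → F))
        (hfv : f v = 0), LinearEquiv.transvection hfv ∈ M) :
    Cfsg.Geo.IsMaximalIn (Cfsg.Geo.specialLinear (Fin n) F)
      (Cfsg.Geo.tensorProductSubgroup n₁ n₂ e P ⊓ Cfsg.Geo.specialLinear (Fin n) F) := by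
  obtain ⟨L₀, h₀⟩ := exists_kron_equiv (F := F) n₁ n₂
  obtain ⟨L, hL⟩ := exists_tp_equiv n n₁ n₂ e P _ L₀ h₀
  exact maximal_of_equiv hn L _ _ hL hprop core

theorem main {F : Type*} [Field F] [Fintype F] (n : ℕ) (hn : 13 ≤ n) (n₁ n₂ : ℕ) (h1 : 2 ≤ n₁)
    (h12 : n₁ < n₂) (hex : ¬ (n₁ = 2 ∧ Fintype.card F = 2)) (e : Fin n ≃ Fin n₁ × Fin n₂)
    (P : Matrix.GeneralLinearGroup (Fin n) F) :
    Cfsg.Geo.IsMaximalIn (Cfsg.Geo.specialLinear (Fin n) F)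
      (Cfsg.Geo.tensorProductSubgroup n₁ n₂ e P ⊓ Cfsg.Geo.specialLinear (Fin n) F) := by
  have e1 : finrank F (Fin n₁ → F) = n₁ := by simp
  have e2 : finrank F (Fin n₂ → F) = n₂ := by simp
  refine maximal_of_abstract n n₁ n₂ (by omega) e P
    (exists_not_mem_NT (by rw [e1]; exact h1) (by rw [e1, e2]; exact h12)) ?_
  intro M hM hMs hne f v hfv
  exact core (by rw [e1]; exact h1) (by rw [e1, e2]; exact h12) (by rw [e1]; exact hex)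
    hM hMs hne f v hfv

end Cfsg.Agent.Lib.Helper59.TP
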