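import Cfsg.Agent.Lib.Helper59.TP.BAS

set_option autoImplicit false

/-! Rung RANK of the S5637 ladder: elements of `GL(U) ⊗ GL(W)` of small residue. -/

namespace Cfsg.Agent.Lib.Helper59.TP

open TensorProduct Module Cfsg.Agent.Lib.Helper95 Cfsg.Agent.Lib.Helper97

variable {F U W : Type*} [Field F] [AddCommGroup U] [Module F U] [AddCommGroup W] [Module F W]

/-- `u ⊗ w ↦ φ u • w`. -/
def evL (W : Type*) [AddCommGroup W] [Module F W] (φ : Dual F U) : U ⊗[F] W →ₗ[F] W :=
  (TensorProduct.lid F W).toLinearMap ∘ₗ LinearMap.rTensor W φ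

@[simp] lemma evL_tmul (φ : Dual F U) (u : U) (w : W) : evL W φ (u ⊗ₜ[F] w) = φ u • w := by
  simp [evL]

/-- an endomorphism for which every vector is an eigenvector is a scalar. -/
theorem rank_scalar_of_forall_mem_span (t : U →ₗ[F] U)
    (h : ∀ u, t u ∈ Submodule.span F {u}) : ∃ c : F, ∀ u, t u = c • u := by
  by_cases hU : ∀ u : U, u = 0
  · exact ⟨1, fun u => by rw [hU u]; simp⟩
  push Not at hU
  obtain ⟨u₀, hu₀⟩ := hU
  obtain ⟨c, hc⟩ := Submodule.mem_span_singleton.mp (h u₀)
  refine ⟨c, fun u => ?_⟩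
  obtain ⟨d, hd⟩ := Submodule.mem_span_singleton.mp (h u)
  by_cases hu : u ∈ Submodule.span F {u₀}
  · obtain ⟨a, rfl⟩ := Submodule.mem_span_singleton.mp hu
    rw [map_smul, ← hc, smul_comm]
  · obtain ⟨e, he⟩ := Submodule.mem_span_singleton.mp (h (u + u₀))
    rw [map_add, ← hc, ← hd, smul_add] at he
    -- (e - d) u = (c - e) u₀
    have h1 : (e - d) • u = (c - e) • u₀ := by
      rw [sub_smul, sub_smul, sub_eq_sub_iff_add_eq_add]
      rw [add_comm (c • u₀)]; exact he
    have h2 : e - d = 0 := by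
      by_contra hne
      apply hu
      rw [Submodule.mem_span_singleton]
      refine ⟨(e - d)⁻¹ * (c - e), ?_⟩
      rw [mul_smul, ← h1, smul_smul, inv_mul_cancel₀ hne, one_smul]
    have h3 : c - e = 0 := by
      rw [h2, zero_smul] at h1
      exact (smul_eq_zero.mp h1.symm).resolve_right hu₀
    rw [← hd]
    congr 1
    rw [sub_eq_zero] at h2 h3
    rw [← h2, h3]

theorem exists_II_le_range [FiniteDimensional F U] [FiniteDimensional F W]
    {e : (U ⊗[F] W) ≃ₗ[F] (U ⊗[F] W)} (he : e ∈ NT F U W) (hne : e ≠ 1)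
    (hr : finrank F (LinearMap.range (e.toLinearMap - LinearMap.id)) < finrank F W) :
    ∃ w : W, w ≠ 0 ∧ II F U w ≤ LinearMap.range (e.toLinearMap - LinearMap.id) := by
  obtain ⟨t, s, rfl⟩ := he
  by_cases ht : ∀ u, t.toLinearMap u ∈ Submodule.span F {u}
  · obtain ⟨c, hc⟩ := rank_scalar_of_forall_mem_span t.toLinearMap ht
    -- `e - 1 = 1 ⊗ β`
    have hβ : ∃ w', c • s w' - w' ≠ 0 := by
      by_contra hcon
      push Not at hcon
      apply hne
      apply LinearEquiv.toLinearMap_injective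
      apply TensorProduct.ext'
      intro u w
      have h1 : t u = c • u := hc u
      have h2 : c • s w = w := sub_eq_zero.mp (hcon w)
      simp only [LinearEquiv.coe_coe, TensorProduct.congr_tmul, h1, LinearEquiv.coe_one, id_eq]
      rw [TensorProduct.smul_tmul, h2]
    obtain ⟨w', hw'⟩ := hβ
    refine ⟨_, hw', ?_⟩
    rintro _ ⟨u, rfl⟩
    refine ⟨u ⊗ₜ[F] w', ?_⟩
    have h1 : t u = c • u := hc u
    simp only [LinearMap.sub_apply, LinearEquiv.coe_coe, TensorProduct.congr_tmul, h1,
      LinearMap.id_apply, ins_apply]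
    rw [TensorProduct.smul_tmul, TensorProduct.tmul_sub]
  · exfalso
    push Not at ht
    obtain ⟨u, hu⟩ := ht
    obtain ⟨φ, hφ, hφ0⟩ := Submodule.exists_dual_map_eq_bot_of_notMem hu inferInstance
    -- φ (t u) ≠ 0, φ u = 0
    have hφu : φ u = 0 := by
      have : φ u ∈ (Submodule.span F {u}).map φ := ⟨u, Submodule.mem_span_singleton_self u, rfl⟩
      rw [hφ0] at this
      simpa using this
    let T : W →ₗ[F] LinearMap.range ((TensorProduct.congr t s).toLinearMap - LinearMap.id) :=
      LinearMap.codRestrict _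
        (((TensorProduct.congr t s).toLinearMap - LinearMap.id) ∘ₗ (TensorProduct.mk F U W u))
        (fun w => ⟨u ⊗ₜ[F] w, rfl⟩)
    have hT : Function.Injective T := by
      rw [← LinearMap.ker_eq_bot, LinearMap.ker_eq_bot']
      intro w hw
      have h1 : ((TensorProduct.congr t s).toLinearMap - LinearMap.id :
          U ⊗[F] W →ₗ[F] U ⊗[F] W) (u ⊗ₜ[F] w) = 0 :=
        congrArg Subtype.val hw
      have h2 := congrArg (evL W φ) h1
      simp only [LinearMap.sub_apply, LinearEquiv.coe_coe, TensorProduct.congr_tmul,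
        LinearMap.id_apply, map_sub, evL_tmul, hφu, zero_smul, sub_zero, map_zero] at h2
      have h3 : s w = 0 := (smul_eq_zero.mp h2).resolve_left hφ
      exact s.map_eq_zero_iff.mp h3
    have := LinearMap.finrank_le_finrank_of_injective hT
    omega

end Cfsg.Agent.Lib.Helper59.TP
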